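import Cfsg.Agent.Lib.StChar.Inst2

/-!
# The uniqueness of the Steinberg character

A Chevalley group has exactly one irreducible character of `p`-defect zero.
-/

set_option autoImplicit false
set_option linter.unusedSectionVars false

namespace Cfsg.Agent.Lib.StChar.Uniq

open Cfsg Cfsg.Lie Module
open scoped Classical

section Generic

variable {G : Type*} [Group G] [Fintype G]

/-- Frobenius reciprocity for the trivial character. -/
theorem sum_char_fix (χ : G → ℂ) (hcl : ∀ g x, χ (g * x * g⁻¹) = χ x) (A : Subgroup G) :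
    ∑ g : G, χ g * fixedPointCharacter A g = (A.index : ℂ) * ∑ a : A, χ (a : G) := by
  classical
  have _ : Fintype (G ⧸ A) := Fintype.ofFinite _
  have h1 : ∀ g : G, fixedPointCharacter A g = ∑ c : G ⧸ A, if g • c = c then (1 : ℂ) else 0 := by
    intro g
    rw [fixedPointCharacter, Nat.card_eq_fintype_card, Fintype.card_subtype, Finset.sum_boole]
    congr 2
  have h3 : ∀ c : G ⧸ A, ∑ g : G, χ g * (if g • c = c then (1 : ℂ) else 0) = ∑ a : A, χ (a : G) := by
    intro c
    obtain ⟨x, rfl⟩ := QuotientGroup.mk_surjective c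
    simp only [mul_ite, mul_one, mul_zero]
    rw [← Finset.sum_filter]
    symm
    refine Finset.sum_bij (fun (a : A) _ => x * (a : G) * x⁻¹) ?_ ?_ ?_ ?_
    · intro a _
      refine Finset.mem_filter.2 ⟨Finset.mem_univ _, ?_⟩
      show (QuotientGroup.mk (x * (a : G) * x⁻¹ * x) : G ⧸ A) = QuotientGroup.mk x
      rw [QuotientGroup.eq]
      have e : (x * (a : G) * x⁻¹ * x)⁻¹ * x = (a : G)⁻¹ := by group
      rw [e]
      exact A.inv_mem a.2
    · intro a _ b _ he
      apply Subtype.ext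
      have := mul_right_cancel he
      exact mul_left_cancel this
    · intro g hg
      have hg' : (QuotientGroup.mk (g * x) : G ⧸ A) = QuotientGroup.mk x := (Finset.mem_filter.1 hg).2
      rw [QuotientGroup.eq] at hg'
      have hm : x⁻¹ * g * x ∈ A := by
        have := A.inv_mem hg'
        have e : ((g * x)⁻¹ * x)⁻¹ = x⁻¹ * g * x := by group
        rwa [e] at this
      exact ⟨⟨_, hm⟩, Finset.mem_univ _, by simp [mul_assoc]⟩
    · intro a _
      exact (hcl x a).symm
  calc ∑ g : G, χ g * fixedPointCharacter A g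
      = ∑ g : G, ∑ c : G ⧸ A, χ g * (if g • c = c then (1 : ℂ) else 0) := by
        refine Finset.sum_congr rfl fun g _ => ?_
        rw [h1, Finset.mul_sum]
    _ = ∑ c : G ⧸ A, ∑ g : G, χ g * (if g • c = c then (1 : ℂ) else 0) := Finset.sum_comm
    _ = _ := by
        simp only [h3]
        rw [Finset.sum_const, Finset.card_univ, nsmul_eq_mul, ← Nat.card_eq_fintype_card]
        rfl

variable {V : Type*} [AddCommGroup V] [Module ℂ V] [FiniteDimensional ℂ V] (ρ : Representation ℂ G V)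

/-- The averaging sum over a subgroup. -/
noncomputable def avg (A : Subgroup G) : V →ₗ[ℂ] V := ∑ a : A, ρ (a : G)

theorem trace_avg (A : Subgroup G) : LinearMap.trace ℂ V (avg ρ A) = ∑ a : A, ρ.character (a : G) := by
  rw [avg, map_sum]
  rfl

theorem avg_fixed (A : Subgroup G) (v : V) {b : G} (hb : b ∈ A) : ρ b (avg ρ A v) = avg ρ A v := by
  simp only [avg, LinearMap.sum_apply, map_sum]
  have e : ∀ a : A, ρ b (ρ (a : G) v) = ρ ((⟨b, hb⟩ * a : A) : G) v := by
    intro a
    rw [Subgroup.coe_mul, map_mul]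
    rfl
  simp only [e]
  exact Fintype.sum_equiv (Equiv.mulLeft (⟨b, hb⟩ : A)) _ _ (fun _ => rfl)

theorem avg_comp (A : Subgroup G) {b : G} (hb : b ∈ A) : avg ρ A ∘ₗ ρ b = avg ρ A := by
  refine LinearMap.ext fun v => ?_
  simp only [avg, LinearMap.comp_apply, LinearMap.sum_apply]
  have e : ∀ a : A, ρ (a : G) (ρ b v) = ρ ((a * ⟨b, hb⟩ : A) : G) v := by
    intro a
    rw [Subgroup.coe_mul, map_mul]
    rfl
  simp only [e]
  exact Fintype.sum_equiv (Equiv.mulRight (⟨b, hb⟩ : A)) _ _ (fun _ => rfl)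

/-- A subgroup without fixed vectors has character sum zero. -/
theorem sum_char_of_fixed (A : Subgroup G) (h : ∀ y : V, (∀ a ∈ A, ρ a y = y) → y = 0) :
    ∑ a : A, ρ.character (a : G) = 0 := by
  have h1 : avg ρ A = 0 := by
    refine LinearMap.ext fun v => ?_
    exact h _ fun a ha => avg_fixed ρ A v ha
  rw [← trace_avg, h1, map_zero]

end Generic

section Chev

open Cfsg.Agent.Lib.ChevBN.Elem Cfsg.Agent.Lib.ChevBN.Entries Cfsg.Agent.Lib.ChevBN.Table
open Cfsg.Agent.Lib.ChevBN.Collect Cfsg.Agent.Lib.ChevBN.Rel Cfsg.Agent.Lib.ChevBN.Torus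
open Cfsg.Agent.Lib.ChevBN.Monomial Cfsg.Agent.Lib.ChevBN.Core Cfsg.Agent.Lib.ChevBN.Pair
open Cfsg.Agent.Lib.BNPair.Basic Cfsg.Agent.Lib.BNPair.Parabolic
open Cfsg.Agent.Lib.ChevOrder.BNCount Cfsg.Agent.Lib.ChevOrder.Chev
open Cfsg.Agent.Lib.StChar.Top Cfsg.Agent.Lib.StChar.Chev Cfsg.Agent.Lib.StChar.Inst
open Cfsg.Agent.Lib.StChar.Inst2 Cfsg.Agent.Lib.StChar.Inner
open Cfsg.Agent.Lib.StChar.HeckeA Cfsg.Agent.Lib.StChar.HeckeB Cfsg.Agent.Lib.StChar.HeckeC

variable {D : ChevalleyDatum} {F : Type*} [Field F] {η : ℕ → ℕ → ℤ}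
  (hR : Sys D F η) (hT : Tbl D) [Fintype F] (p : ℕ) [Fact p.Prime] [CharP F p]
  [Fintype ↥(D.group F)]

include hR hT p

/-- A representation of defect zero has `U`-fixed vectors. -/
theorem fixed_vector {V : Type*} [AddCommGroup V] [Module ℂ V] [FiniteDimensional ℂ V]
    (ρ : Representation ℂ ↥(D.group F) V) [ρ.IsIrreducible]
    (hdeg : p ^ (Nat.card ↥(D.group F)).factorization p ∣ finrank ℂ V) :
    ∃ v : V, v ≠ 0 ∧ ∀ u ∈ UG D F, ρ u v = v := by
  have hp : p.Prime := Fact.out
  have hpos : Nat.card ↥(D.group F) ≠ 0 := Nat.card_pos.ne'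
  have hzero : ∀ x ∈ UG D F, x ≠ 1 → ρ.character x = 0 := by
    intro x hx hne
    refine Cfsg.Agent.Lib.Char.PRegular.character_eq_zero_of_defect_zero ρ p _ hp
      (Nat.ordProj_dvd _ _) (Nat.pow_succ_factorization_not_dvd hpos hp) hdeg x ?_
    obtain ⟨k, hk⟩ := IsPGroup.iff_orderOf.1 (isPGroup_U hR hT p) ⟨x, hx⟩
    rw [Subgroup.orderOf_mk] at hk
    rw [hk]
    refine dvd_pow_self _ ?_
    rintro rfl
    rw [pow_zero, orderOf_eq_one_iff] at hk
    exact hne hk
  have htr : LinearMap.trace ℂ V (S ρ (UG D F) 1) = ρ.character 1 := by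
    rw [S, map_sum]
    rw [Finset.sum_eq_single 1]
    · rfl
    · intro x hx hne
      exact hzero x ((mem_dc_one _).1 hx) hne
    · intro h
      exact absurd ((mem_dc_one _).2 (Subgroup.one_mem _)) h
  have h1 : ρ.character 1 ≠ 0 := by
    rw [Representation.char_one]
    exact_mod_cast Cfsg.Agent.Lib.Char.Integrality.finrank_ne_zero_of_isIrreducible ρ
  have hne : S ρ (UG D F) 1 ≠ 0 := by
    intro h0
    rw [h0, map_zero] at htr
    exact h1 htr.symm
  have hee : ee ρ (UG D F) ≠ 0 := by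
    intro h0
    rw [HeckeA.ee, T] at h0
    rcases smul_eq_zero.1 h0 with h2 | h2
    · exact inv_ne_zero (card_U_ne (UG D F)) h2
    · exact hne h2
  obtain ⟨v, hv⟩ : ∃ v, ee ρ (UG D F) v ≠ 0 := by
    by_contra hcon
    push Not at hcon
    exact hee (LinearMap.ext hcon)
  exact ⟨_, hv, fun u hu => rho_ee_apply ρ hu v⟩

omit hR hT p in
/-- The trace of the averaging operator on a line. -/
theorem sum_char_line {V : Type*} [AddCommGroup V] [Module ℂ V] [FiniteDimensional ℂ V]
    {G : Type*} [Group G] [Fintype G] {ρ : Representation ℂ G V} {U A : Subgroup G} {w : V}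
    (hl : Line ρ U w) (hUA : U ≤ A) (hfix : ∀ a ∈ A, ρ a w = w) :
    ∑ a : A, ρ.character (a : G) = (Nat.card A : ℂ) := by
  have hA2 : avg ρ A ∘ₗ ee ρ U = avg ρ A := by
    have h1 : avg ρ A ∘ₗ S ρ U 1 = ((dc U 1).card : ℂ) • avg ρ A := by
      refine LinearMap.ext fun v => ?_
      have : ∀ x ∈ dc U 1, avg ρ A (ρ x v) = avg ρ A v := fun x hx =>
        congrArg (fun f : V →ₗ[ℂ] V => f v) (avg_comp ρ A (hUA ((mem_dc_one _).1 hx)))
      simp only [LinearMap.comp_apply, S, LinearMap.sum_apply, map_sum, LinearMap.smul_apply]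
      rw [Finset.sum_congr rfl this, Finset.sum_const, Nat.cast_smul_eq_nsmul]
    rw [HeckeA.ee, T, LinearMap.comp_smul, h1, card_dc_one, smul_smul, inv_mul_cancel₀ (card_U_ne U), one_smul]
  have hw : avg ρ A w = (Nat.card A : ℂ) • w := by
    simp only [avg, LinearMap.sum_apply]
    rw [Finset.sum_congr rfl fun (a : A) _ => hfix (a : G) a.2, Finset.sum_const, Finset.card_univ,
      ← Nat.card_eq_fintype_card, Nat.cast_smul_eq_nsmul]
  rw [← trace_avg]
  exact hl.trace_corner hA2 hw

/-- The inner product with the Steinberg character. -/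
theorem classInner_eq_one (hT2 : Tbl2 D) {V : Type*} [AddCommGroup V] [Module ℂ V] [FiniteDimensional ℂ V]
    (ρ : Representation ℂ ↥(D.group F) V) [ρ.IsIrreducible]
    (hdeg : p ^ (Nat.card ↥(D.group F)).factorization p ∣ finrank ℂ V) :
    classInner ρ.character (D.steinbergCharacter F) = 1 := by
  have hp : p.Prime := Fact.out
  have hGpos : Nat.card ↥(D.group F) ≠ 0 := Nat.card_pos.ne'
  obtain ⟨κ, hκ0⟩ := Cfsg.Agent.Lib.Char.Integrality.finrank_dvd_card ρ
  have hm0 := Cfsg.Agent.Lib.Char.Integrality.finrank_ne_zero_of_isIrreducible ρ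
  have hκ : (κ : ℂ) = (Nat.card ↥(D.group F) : ℂ) / (finrank ℂ V : ℂ) := by
    rw [hκ0]
    push_cast
    have : (finrank ℂ V : ℂ) ≠ 0 := by exact_mod_cast hm0
    field_simp
  have hc : Nat.Coprime κ (Fintype.card F) := by
    obtain ⟨k, hk0, hq⟩ := FiniteField.card F p
    rw [hq]
    refine Nat.Coprime.pow_right _ ?_
    refine ((Nat.Prime.coprime_iff_not_dvd hp).2 ?_).symm
    intro hd
    apply Nat.pow_succ_factorization_not_dvd hGpos hp
    rw [pow_succ]
    conv_rhs => rw [hκ0]
    exact Nat.mul_dvd_mul hdeg hd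
  obtain ⟨n, -, hnP, h1, h2⟩ := exists_top_rep hR hT (Finset.univ : Finset (Fin D.rank))
  rw [Finset.coe_univ] at hnP h1 h2
  have hw : ∀ i, LL (pair hR hT) (fW hR hT i * QuotientGroup.mk n) < LL (pair hR hT) (QuotientGroup.mk n) :=
    fun i => h1 i (Set.mem_univ _)
  have hdata := data hR hT p hT2 n hw hnP
  have hsimple := simple_data hR hT p n hw
  obtain ⟨w, hw0, hwfix, hwH, hwspan⟩ := exists_line (ρ := ρ) hdata hκ hc (fixed_vector hR hT p ρ hdeg)
  have hl : Line ρ (UG D F) w := ⟨hw0, hwfix, hwspan⟩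
  obtain ⟨hH1, hTm⟩ := final hsimple hl hdata (H_le_closure hR hT) hκ hc hwH
  -- the sums over the parabolic subgroups
  have hUP : ∀ K : Finset (Fin D.rank), UG D F ≤ (pair hR hT).parabolic (ee hR hT '' (K : Set (Fin D.rank))) :=
    fun K => le_trans (UG_le_B hR hT) (B_le_parabolic _)
  have hK0 : ∀ K : Finset (Fin D.rank), K ≠ ∅ →
      ∑ a : (pair hR hT).parabolic (ee hR hT '' (K : Set (Fin D.rank))), ρ.character (a : ↥(D.group F)) = 0 := by
    intro K hK
    obtain ⟨i, hi⟩ := Finset.nonempty_iff_ne_empty.2 hK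
    refine sum_char_of_fixed ρ _ fun y hy => ?_
    exact fixed_eq_zero hsimple hl hTm (hUP K)
      (closure_le_parabolic _ (Subgroup.subset_closure ⟨i, hi, rfl⟩)) hy
  have hB : ∀ a ∈ (pair hR hT).parabolic (ee hR hT '' ((∅ : Finset (Fin D.rank)) : Set (Fin D.rank))),
      ρ a w = w := by
    intro a ha
    have h3 : (pair hR hT).parabolic (ee hR hT '' ((∅ : Finset (Fin D.rank)) : Set (Fin D.rank))) =
        (pair hR hT).B := by
      simp [Cfsg.BNPair.parabolic]
    rw [h3] at ha
    obtain ⟨u, hu, h, hh, rfl⟩ := B_decomp hR hT ha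
    rw [map_mul, Module.End.mul_apply, hH1 h hh, hwfix u hu]
  have hK1 := sum_char_line hl (hUP ∅) hB
  -- the computation
  have hst : ∀ g, (starRingEnd ℂ) (D.steinbergCharacter F g) = D.steinbergCharacter F g := by
    intro g
    rw [steinberg_eq hR hT]
    simp only [stChar, map_sum, map_mul, map_pow, map_neg, map_one, fixedPointCharacter,
      Complex.conj_natCast]
  rw [classInner]
  simp only [hst]
  have hcl := fun (g x : ↥(D.group F)) => Representation.char_conj ρ x g
  have hsum : ∑ g : ↥(D.group F), ρ.character g * D.steinbergCharacter F g = Nat.card ↥(D.group F) := by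
    rw [steinberg_eq hR hT]
    simp only [stChar, Finset.mul_sum]
    rw [Finset.sum_comm]
    rw [Finset.sum_eq_single (∅ : Finset (Fin D.rank))]
    · have e1 : ∀ g, ρ.character g * ((-1 : ℂ) ^ (∅ : Finset (Fin D.rank)).card *
          fixedPointCharacter ((pair hR hT).parabolic (ee hR hT '' ((∅ : Finset (Fin D.rank)) : Set (Fin D.rank)))) g) =
          ρ.character g * fixedPointCharacter ((pair hR hT).parabolic (ee hR hT '' ((∅ : Finset (Fin D.rank)) : Set (Fin D.rank)))) g := by
        intro g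
        simp
      simp only [e1]
      rw [sum_char_fix _ hcl, hK1]
      have := Subgroup.card_mul_index ((pair hR hT).parabolic (ee hR hT '' ((∅ : Finset (Fin D.rank)) : Set (Fin D.rank))))
      rw [mul_comm]
      exact_mod_cast this
    · intro K _ hK
      have e2 : ∀ g, ρ.character g * ((-1 : ℂ) ^ K.card *
          fixedPointCharacter ((pair hR hT).parabolic (ee hR hT '' (K : Set (Fin D.rank)))) g) =
          (-1 : ℂ) ^ K.card * (ρ.character g * fixedPointCharacter ((pair hR hT).parabolic (ee hR hT '' (K : Set (Fin D.rank)))) g) := by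
        intro g
        ring
      simp only [e2]
      rw [← Finset.mul_sum, sum_char_fix _ hcl, hK0 K hK, mul_zero, mul_zero]
    · intro h
      exact absurd (Finset.mem_univ _) h
  rw [hsum]
  have : (Nat.card ↥(D.group F) : ℂ) ≠ 0 := by exact_mod_cast hGpos
  field_simp

end Chev

section Final

open Cfsg.Agent.Lib.ChevBN.Rel Cfsg.Agent.Lib.ChevBN.Table Cfsg.Agent.Lib.ChevBN.Pair

/-- **The Steinberg character is the unique irreducible character of defect zero.** -/
theorem steinberg_unique {D : ChevalleyDatum} {F : Type*} [Field F] {η : ℕ → ℕ → ℤ}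
    (hR : Sys D F η) (hT : Tbl D) (hT2 : Tbl2 D) [Fintype F] (p : ℕ) [Fact p.Prime] [CharP F p]
    (χ : ↥(D.group F) → ℂ) (hχ : IsIrrCharacter ↥(D.group F) χ)
    (hdeg : ∃ d : ℕ, χ 1 = (d : ℂ) ∧ p ^ (Nat.card ↥(D.group F)).factorization p ∣ d) :
    χ = D.steinbergCharacter F := by
  have _ : Fintype ↥(D.group F) := Fintype.ofFinite _
  have hst := Cfsg.Agent.Lib.StChar.Chev.steinberg_isIrr hR hT (F := F)
  by_contra hne
  have h0 := Cfsg.Agent.Lib.Char.Ortho.classInner_irr_of_ne hχ hst hne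
  obtain ⟨m, ρ, hρ, he⟩ := hχ
  have := hρ
  obtain ⟨d, hd, hdvd⟩ := hdeg
  have h1 : ρ.character 1 = (finrank ℂ (Fin m → ℂ) : ℂ) := Representation.char_one ρ
  have hmd : finrank ℂ (Fin m → ℂ) = d := by
    have : (finrank ℂ (Fin m → ℂ) : ℂ) = (d : ℂ) := by
      rw [← h1, he, hd]
    exact_mod_cast this
  have h2 := classInner_eq_one hR hT p hT2 ρ (by rw [hmd]; exact hdvd)
  rw [he, h0] at h2
  exact zero_ne_one h2

end Final

end Cfsg.Agent.Lib.StChar.Uniq
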