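import Cfsg.Agent.Lib.StChar.Inner

/-!
# Counting `p`-elements with the Steinberg characters of the parabolic subgroups

For a conjugation invariant subset `Ω` of a group with a (B,N)-pair, suppose the alternating sums
`St^J = ∑_{K ⊆ J} (-1)^|K| 1_{P_K}^{P_J}` have the same sum `c` on `Ω ∩ P_J` for all `J`.  Then
`|Ω| = c St(1)`, by Möbius inversion on the subsets of the fundamental reflections.
-/

set_option autoImplicit false
set_option linter.unusedSectionVars false

namespace Cfsg.Agent.Lib.StChar.Count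

open Cfsg.Agent.Lib.BNPair.Basic Cfsg.Agent.Lib.BNPair.Parabolic Cfsg.Agent.Lib.ChevOrder.BNCount
open Cfsg.Agent.Lib.BNPair.CoxeterExchange Cfsg.Agent.Lib.ChevOrder.Cox Cfsg.Agent.Lib.StChar.Cox
open Cfsg.Agent.Lib.StChar.Gate Cfsg.Agent.Lib.StChar.Inner

section Generic

variable {G : Type*} [Group G]

theorem insub_smul {A Q : Subgroup G} {g : G} (hg : g ∈ Q) (c : G ⧸ A) :
    InSub Q (g • c) ↔ InSub Q c := by
  constructor
  · rintro ⟨x, hx, e⟩
    refine ⟨g⁻¹ * x, Q.mul_mem (Q.inv_mem hg) hx, ?_⟩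
    have : c = g⁻¹ • (g • c) := by simp
    rw [this, e, smul_mk]
  · rintro ⟨x, hx, rfl⟩
    exact ⟨g * x, Q.mul_mem hg hx, rfl⟩

theorem fixIn_conj (Q A : Subgroup G) {g : G} (hg : g ∈ Q) (x : G) :
    fixIn Q A (g * x * g⁻¹) = fixIn Q A x := by
  refine Nat.card_congr (Equiv.subtypeEquiv (MulAction.toPerm g⁻¹) fun c => ?_)
  rw [MulAction.toPerm_apply, insub_smul (Q.inv_mem hg)]
  refine and_congr_right fun _ => ?_
  constructor
  · intro h
    have : x • (g⁻¹ • c) = g⁻¹ • ((g * x * g⁻¹) • c) := by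
      simp only [smul_smul]
      congr 1
      group
    rw [this, h]
  · intro h
    have : (g * x * g⁻¹) • c = g • (x • (g⁻¹ • c)) := by
      simp only [smul_smul]
      congr 1
      group
    rw [this, h]
    simp

/-- The number of cosets of `A` in `Q`. -/
theorem card_insub [Finite G] {Q A : Subgroup G} (hAQ : A ≤ Q) :
    Nat.card {c : G ⧸ A // InSub Q c} * Nat.card A = Nat.card Q := by
  classical
  let φ : Q → {c : G ⧸ A // InSub Q c} := fun q => ⟨QuotientGroup.mk (q : G), q, q.2, rfl⟩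
  let ψ : Q ⧸ A.subgroupOf Q → {c : G ⧸ A // InSub Q c} := fun c => φ (Quotient.out c)
  have hψ : ∀ q : Q, ψ (QuotientGroup.mk q) = φ q := by
    intro q
    apply Subtype.ext
    show (QuotientGroup.mk ((Quotient.out (QuotientGroup.mk q : Q ⧸ A.subgroupOf Q) : Q) : G) : G ⧸ A) =
      QuotientGroup.mk (q : G)
    rw [QuotientGroup.eq]
    have h1 : (Quotient.out (QuotientGroup.mk q : Q ⧸ A.subgroupOf Q))⁻¹ * q ∈ A.subgroupOf Q :=
      QuotientGroup.eq.1 (QuotientGroup.out_eq' _)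
    exact Subgroup.mem_subgroupOf.1 h1
  have hb : Function.Bijective ψ := by
    constructor
    · intro a b h
      obtain ⟨a, rfl⟩ := QuotientGroup.mk_surjective a
      obtain ⟨b, rfl⟩ := QuotientGroup.mk_surjective b
      rw [hψ, hψ] at h
      have h2 : (QuotientGroup.mk (a : G) : G ⧸ A) = QuotientGroup.mk (b : G) := congrArg Subtype.val h
      rw [QuotientGroup.eq] at h2
      rw [QuotientGroup.eq, Subgroup.mem_subgroupOf]
      exact h2
    · rintro ⟨c, x, hx, rfl⟩
      exact ⟨QuotientGroup.mk ⟨x, hx⟩, (hψ _).trans rfl⟩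
  rw [← Nat.card_congr (Equiv.ofBijective ψ hb)]
  have h1 := Subgroup.card_mul_index (A.subgroupOf Q)
  rw [Nat.card_congr (Subgroup.subgroupOfEquivOfLe hAQ).toEquiv] at h1
  rw [mul_comm]
  exact h1

variable [Finite G] (Ω : Set G)

open Classical in
/-- The elements of `Ω` in `Q`. -/
noncomputable def SS (Q : Subgroup G) : Finset G :=
  have _ : Fintype G := Fintype.ofFinite G
  Finset.univ.filter fun x => x ∈ Ω ∧ x ∈ Q

theorem mem_SS {Q : Subgroup G} {x : G} : x ∈ SS Ω Q ↔ x ∈ Ω ∧ x ∈ Q := by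
  simp [SS]

/-- Double counting of fixed points. -/
theorem sum_fixIn_SS (hΩ : ∀ g x, x ∈ Ω → g * x * g⁻¹ ∈ Ω) {Q A : Subgroup G} (hAQ : A ≤ Q) :
    ∑ x ∈ SS Ω Q, fixIn Q A x = Nat.card {c : G ⧸ A // InSub Q c} * (SS Ω A).card := by
  classical
  have _ : Fintype (G ⧸ A) := Fintype.ofFinite _
  have e1 : ∀ x, fixIn Q A x =
      ((Finset.univ.filter fun c : G ⧸ A => InSub Q c).bipartiteAbove (fun (x : G) c => x • c = c) x).card := by
    intro x
    rw [fixIn, Nat.card_eq_fintype_card, Fintype.card_subtype, Finset.bipartiteAbove, Finset.filter_filter]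
  simp_rw [e1]
  rw [Finset.sum_card_bipartiteAbove_eq_sum_card_bipartiteBelow]
  have e2 : ∀ c ∈ Finset.univ.filter fun c : G ⧸ A => InSub Q c,
      ((SS Ω Q).bipartiteBelow (fun (x : G) c => x • c = c) c).card = (SS Ω A).card := by
    intro c hc
    obtain ⟨g, hg, rfl⟩ := (Finset.mem_filter.1 hc).2
    refine Finset.card_bij' (fun x _ => g⁻¹ * x * g) (fun y _ => g * y * g⁻¹) ?_ ?_ ?_ ?_
    · intro x hx
      have hx' := Finset.mem_filter.1 hx
      have h1 := (mem_SS Ω).1 hx'.1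
      have h2 : (x * g)⁻¹ * g ∈ A := QuotientGroup.eq.1 hx'.2
      rw [mem_SS]
      refine ⟨?_, ?_⟩
      · have := hΩ g⁻¹ x h1.1
        simpa using this
      · have e : g⁻¹ * x * g = ((x * g)⁻¹ * g)⁻¹ := by group
        rw [e]
        exact A.inv_mem h2
    · intro y hy
      have h1 := (mem_SS Ω).1 hy
      refine Finset.mem_filter.2 ⟨(mem_SS Ω).2 ⟨hΩ g y h1.1, Q.mul_mem (Q.mul_mem hg (hAQ h1.2)) (Q.inv_mem hg)⟩, ?_⟩
      show (g * y * g⁻¹) • (QuotientGroup.mk g : G ⧸ A) = QuotientGroup.mk g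
      rw [smul_mk, QuotientGroup.eq]
      have e : (g * y * g⁻¹ * g)⁻¹ * g = y⁻¹ := by group
      rw [e]
      exact A.inv_mem h1.2
    · intro x _
      group
    · intro y _
      group
  rw [Finset.sum_congr rfl e2, Finset.sum_const, smul_eq_mul]
  congr 1
  rw [Nat.card_eq_fintype_card, Fintype.card_subtype]

/-- Möbius inversion on subsets. -/
theorem moebius {ι : Type*} [DecidableEq ι] (S : Finset ι) (a : Finset ι → ℚ) :
    ∑ J ∈ S.powerset, (-1 : ℚ) ^ J.card * ∑ K ∈ J.powerset, (-1 : ℚ) ^ K.card * a K = a S := by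
  induction S using Finset.induction_on generalizing a with
  | empty => simp
  | insert i S hi ih =>
    rw [Finset.sum_powerset_insert hi, ← Finset.sum_add_distrib, ← ih (fun K => a (insert i K))]
    refine Finset.sum_congr rfl fun J hJ => ?_
    have hiJ : i ∉ J := fun h => hi (Finset.mem_powerset.1 hJ h)
    rw [Finset.card_insert_of_notMem hiJ, Finset.sum_powerset_insert hiJ, ← Finset.sum_add_distrib,
      Finset.mul_sum, Finset.mul_sum, Finset.mul_sum, ← Finset.sum_add_distrib]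
    refine Finset.sum_congr rfl fun K hK => ?_
    have hiK : i ∉ K := fun h => hiJ (Finset.mem_powerset.1 hK h)
    rw [Finset.card_insert_of_notMem hiK]
    ring

end Generic

variable {G : Type*} [Group G] {P : Cfsg.BNPair G} {ι : Type*} {e : ι → G}

/-- The alternating sum on `P_J`. -/
noncomputable def stJ [DecidableEq ι] (P : Cfsg.BNPair G) (e : ι → G) (J : Finset ι) (x : G) : ℤ :=
  ∑ K ∈ J.powerset, (-1 : ℤ) ^ K.card *
    (fixIn (P.parabolic (e '' (J : Set ι))) (P.parabolic (e '' (K : Set ι))) x : ℤ)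

theorem stJ_conj [DecidableEq ι] (J : Finset ι) {g : G} (hg : g ∈ P.parabolic (e '' (J : Set ι))) (x : G) :
    stJ P e J (g * x * g⁻¹) = stJ P e J x := by
  rw [stJ, stJ]
  refine Finset.sum_congr rfl fun K _ => ?_
  rw [fixIn_conj _ _ hg]

theorem parabolic_le_of_subset {K J : Set ι} (h : K ⊆ J) :
    P.parabolic (e '' K) ≤ P.parabolic (e '' J) := by
  refine sup_le le_sup_left (le_trans (Subgroup.closure_mono (Set.image_mono h)) le_sup_right)

variable [Finite G] (Ω : Set G)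

open Classical in
/-- The value of the sum on `Ω ∩ P_J`, from the values of `St^J` on `U`. -/
theorem sum_stJ [DecidableEq ι] (J : Finset ι) {U UJ : Subgroup G} {A : ℕ}
    (hUJΩ : ∀ y ∈ UJ, y ∈ Ω) (hUJP : UJ ≤ P.parabolic (e '' (J : Set ι)))
    (hnorm : ∀ g ∈ P.parabolic (e '' (J : Set ι)), ∀ x ∈ UJ, g * x * g⁻¹ ∈ UJ)
    (hconj : ∀ x, x ∈ Ω → x ∈ P.parabolic (e '' (J : Set ι)) →
      ∃ g ∈ P.parabolic (e '' (J : Set ι)), g * x * g⁻¹ ∈ U)
    (hfix : ∀ u ∈ U, stJ P e J u = if u ∈ UJ then (A : ℤ) else 0) :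
    ∑ x ∈ SS Ω (P.parabolic (e '' (J : Set ι))), stJ P e J x = (A : ℤ) * Nat.card UJ := by
  classical
  have _ : Fintype G := Fintype.ofFinite G
  have h1 : ∀ x ∈ SS Ω (P.parabolic (e '' (J : Set ι))), stJ P e J x = if x ∈ UJ then (A : ℤ) else 0 := by
    intro x hx
    obtain ⟨hxΩ, hxP⟩ := (mem_SS Ω).1 hx
    obtain ⟨g, hg, hu⟩ := hconj x hxΩ hxP
    rw [← stJ_conj J hg x, hfix _ hu]
    have h2 : g * x * g⁻¹ ∈ UJ ↔ x ∈ UJ := by
      constructor
      · intro h
        have := hnorm g⁻¹ (Subgroup.inv_mem _ hg) _ h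
        simpa [mul_assoc] using this
      · exact hnorm g hg x
    simp only [h2]
  rw [Finset.sum_congr rfl h1, Finset.sum_ite, Finset.sum_const, Finset.sum_const_zero, add_zero,
    nsmul_eq_mul, mul_comm]
  congr 2
  rw [Nat.card_eq_fintype_card, Fintype.card_subtype]
  congr 1
  ext x
  simp only [Finset.mem_filter, Finset.mem_univ, true_and]
  exact ⟨fun h => h.2, fun h => ⟨(mem_SS Ω).2 ⟨hUJΩ x h, hUJP h⟩, h⟩⟩

theorem parabolic_univ' [Fintype ι] [DecidableEq ι] {he : ∀ i, e i ∈ P.S} (hs : Setup (ff e he) (LL P)) :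
    P.parabolic (e '' ((Finset.univ : Finset ι) : Set ι)) = ⊤ := parabolic_univ hs

/-- **The count.** -/
theorem card_omega [Fintype ι] [DecidableEq ι] {he : ∀ i, e i ∈ P.S} (hs : Setup (ff e he) (LL P))
    (hΩ : ∀ g x, x ∈ Ω → g * x * g⁻¹ ∈ Ω) (c : ℕ)
    (hc : ∀ J : Finset ι, ∑ x ∈ SS Ω (P.parabolic (e '' (J : Set ι))), stJ P e J x = (c : ℤ)) :
    (Nat.card Ω : ℚ) = c * ∑ J : Finset ι, (-1 : ℚ) ^ J.card *
      ((P.parabolic (e '' (J : Set ι))).index : ℚ) := by
  classical
  have _ : Fintype G := Fintype.ofFinite G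
  set PP : Finset ι → Subgroup G := fun J => P.parabolic (e '' (J : Set ι)) with hPP
  let a : Finset ι → ℚ := fun K => ((SS Ω (PP K)).card : ℚ) / Nat.card (PP K)
  have hpos : ∀ J, (Nat.card (PP J) : ℚ) ≠ 0 := fun J => by
    exact_mod_cast (Nat.card_pos (α := PP J)).ne'
  have hJ : ∀ J : Finset ι, ∑ K ∈ J.powerset, (-1 : ℚ) ^ K.card * a K = (c : ℚ) / Nat.card (PP J) := by
    intro J
    have h1 := congrArg (Int.cast : ℤ → ℚ) (hc J)
    rw [Int.cast_natCast] at h1
    rw [← h1]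
    have h2 : ∑ x ∈ SS Ω (PP J), stJ P e J x = ∑ K ∈ J.powerset, (-1 : ℤ) ^ K.card *
        ((Nat.card {c : G ⧸ PP K // InSub (PP J) c} * (SS Ω (PP K)).card : ℕ) : ℤ) := by
      simp only [stJ]
      rw [Finset.sum_comm]
      refine Finset.sum_congr rfl fun K hK => ?_
      rw [← Finset.mul_sum, ← sum_fixIn_SS Ω hΩ
        (parabolic_le_of_subset (Finset.coe_subset.2 (Finset.mem_powerset.1 hK)))]
      push_cast
      rfl
    rw [h2]
    push_cast
    rw [Finset.sum_div]
    refine Finset.sum_congr rfl fun K hK => ?_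
    have h3 := card_insub (G := G) (Q := PP J) (A := PP K)
      (parabolic_le_of_subset (Finset.coe_subset.2 (Finset.mem_powerset.1 hK)))
    have h4 : (Nat.card {c : G ⧸ PP K // InSub (PP J) c} : ℚ) * Nat.card (PP K) = Nat.card (PP J) := by
      exact_mod_cast h3
    have h5 := hpos J
    have h6 := hpos K
    simp only [a]
    field_simp
    rw [← h4]
    ring
  have hm := moebius (Finset.univ : Finset ι) a
  simp only [hJ, Finset.powerset_univ] at hm
  have huniv : PP Finset.univ = ⊤ := parabolic_univ hs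
  have ha : a Finset.univ = (Nat.card Ω : ℚ) / Nat.card G := by
    simp only [a]
    rw [huniv]
    have e1 : Nat.card (⊤ : Subgroup G) = Nat.card G := Subgroup.card_top
    rw [e1]
    congr 2
    rw [Nat.card_eq_fintype_card, Fintype.card_ofFinset]
    congr 1
    ext x
    simp [mem_SS]
  rw [ha] at hm
  have hG : (Nat.card G : ℚ) ≠ 0 := by exact_mod_cast (Nat.card_pos (α := G)).ne'
  have h7 : (Nat.card Ω : ℚ) = Nat.card G * ∑ J : Finset ι, (-1 : ℚ) ^ J.card * ((c : ℚ) / Nat.card (PP J)) := by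
    rw [hm]
    field_simp
  rw [h7, Finset.mul_sum, Finset.mul_sum]
  refine Finset.sum_congr rfl fun J _ => ?_
  have h8 : (Nat.card (PP J) : ℚ) * ((PP J).index : ℚ) = Nat.card G := by
    exact_mod_cast Subgroup.card_mul_index (PP J)
  rw [← h8]
  have h9 := hpos J
  field_simp
  rw [mul_comm]

end Cfsg.Agent.Lib.StChar.Count
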