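import Mathlib
import Cfsg.Agent.Lib.Char.Integrality
import Cfsg.Agent.Lib.Char.TraceFormula
import Cfsg.Agent.Lib.Char.SmallDeg

/-!
# Hecke operators on the `U`-fixed points of an irreducible representation

For a subgroup `U` of a finite group `G` and a representation `ρ`, `T g` is `|U|⁻¹` times the sum of
`ρ x` over the double coset `U g U`.  These operators lie in the corner `e End(V) e`, where `e` is
the averaging idempotent of `U`.  The product of two of them is a natural combination of them, so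
their traces are algebraic integers.  Schur orthogonality gives a reproducing formula in the corner.
-/

set_option autoImplicit false
set_option linter.unusedSectionVars false

namespace Cfsg.Agent.Lib.StChar.HeckeA

open Module Cfsg.Agent.Lib.Char.Integrality

variable {G : Type*} [Group G] [Fintype G] {V : Type*} [AddCommGroup V] [Module ℂ V]

/-! ### Schur orthogonality in operator form -/

section Schur

variable [FiniteDimensional ℂ V]

/-- The twirl of an operator is scalar. -/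
theorem twirl_eq (ρ : Representation ℂ G V) [ρ.IsIrreducible] (C : V →ₗ[ℂ] V) :
    ∑ g : G, ρ g⁻¹ ∘ₗ C ∘ₗ ρ g =
      (((Nat.card G : ℂ) / (finrank ℂ V : ℂ)) * LinearMap.trace ℂ V C) • LinearMap.id := by
  classical
  have hcomm : ∀ g : G, (∑ x : G, ρ x⁻¹ ∘ₗ C ∘ₗ ρ x) ∘ₗ ρ g = ρ g ∘ₗ (∑ x : G, ρ x⁻¹ ∘ₗ C ∘ₗ ρ x) := by
    intro g
    refine LinearMap.ext fun v => ?_
    simp only [LinearMap.comp_apply, LinearMap.sum_apply, map_sum]
    refine Finset.sum_equiv (Equiv.mulRight g) (by simp) ?_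
    intro x _
    simp only [Equiv.coe_mulRight]
    have e1 : ρ (x * g) v = ρ x (ρ g v) := by
      rw [map_mul, Module.End.mul_apply]
    have e2 : ρ g (ρ (x * g)⁻¹ (C (ρ x (ρ g v)))) = ρ x⁻¹ (C (ρ x (ρ g v))) := by
      rw [← Module.End.mul_apply, ← map_mul]
      congr 2
      group
    rw [e1, e2]
  have h := eq_trace_div_smul_of_commute ρ _ hcomm
  rw [h]
  congr 1
  rw [map_sum]
  have : ∀ g : G, LinearMap.trace ℂ V (ρ g⁻¹ ∘ₗ C ∘ₗ ρ g) = LinearMap.trace ℂ V C := by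
    intro g
    rw [LinearMap.trace_comp_comm', LinearMap.comp_assoc, ← Module.End.mul_eq_comp (ρ g) (ρ g⁻¹),
      ← map_mul, mul_inv_cancel, map_one]
    rfl
  simp only [this, Finset.sum_const, Finset.card_univ, nsmul_eq_mul, Nat.card_eq_fintype_card]
  ring

/-- The trace of a rank one operator. -/
theorem trace_smulRight (φ : V →ₗ[ℂ] ℂ) (x : V) :
    LinearMap.trace ℂ V (φ.smulRight x) = φ x := by
  have h := LinearMap.trace_eq_contract_apply ℂ V (φ ⊗ₜ[ℂ] x)
  have e : dualTensorHom ℂ V V (φ ⊗ₜ[ℂ] x) = φ.smulRight x := by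
    ext y
    simp [dualTensorHom_apply]
  rw [e] at h
  rw [h]
  simp

/-- **Schur orthogonality.** -/
theorem sum_trace_smul (ρ : Representation ℂ G V) [ρ.IsIrreducible] (A : V →ₗ[ℂ] V) :
    ∑ g : G, LinearMap.trace ℂ V (A ∘ₗ ρ g) • ρ g⁻¹ =
      ((Nat.card G : ℂ) / (finrank ℂ V : ℂ)) • A := by
  classical
  let b := Module.finBasis ℂ V
  refine LinearMap.ext fun x => ?_
  simp only [LinearMap.sum_apply, LinearMap.smul_apply]
  have h1 : ∀ g : G, LinearMap.trace ℂ V (A ∘ₗ ρ g) =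
      ∑ i, b.coord i (A (ρ g (b i))) := by
    intro g
    rw [LinearMap.trace_eq_matrix_trace ℂ b, Matrix.trace]
    refine Finset.sum_congr rfl fun i _ => ?_
    simp [LinearMap.toMatrix_apply]
  have h2 : ∀ i, ∑ g : G, b.coord i (A (ρ g (b i))) • ρ g⁻¹ x =
      (((Nat.card G : ℂ) / (finrank ℂ V : ℂ)) * b.coord i (A x)) • b i := by
    intro i
    have h3 := twirl_eq ρ (((b.coord i) ∘ₗ A).smulRight x)
    have h4 := congrArg (fun f : V →ₗ[ℂ] V => f (b i)) h3
    simp only [LinearMap.sum_apply, LinearMap.comp_apply, LinearMap.smulRight_apply,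
      map_smul, LinearMap.smul_apply, LinearMap.id_apply] at h4
    rw [h4, trace_smulRight]
    simp
  calc ∑ g : G, LinearMap.trace ℂ V (A ∘ₗ ρ g) • ρ g⁻¹ x
      = ∑ i, ∑ g : G, b.coord i (A (ρ g (b i))) • ρ g⁻¹ x := by
        rw [Finset.sum_comm]
        refine Finset.sum_congr rfl fun g _ => ?_
        rw [h1, Finset.sum_smul]
    _ = ∑ i, (((Nat.card G : ℂ) / (finrank ℂ V : ℂ)) * b.coord i (A x)) • b i :=
        Finset.sum_congr rfl fun i _ => h2 i
    _ = ((Nat.card G : ℂ) / (finrank ℂ V : ℂ)) • A x := by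
        simp only [mul_smul]
        rw [← Finset.smul_sum]
        congr 1
        exact b.sum_repr (A x)

end Schur

/-! ### Double cosets -/

open Classical in
/-- The double coset `U g U` as a finset. -/
noncomputable def dc (U : Subgroup G) (g : G) : Finset G :=
  Finset.univ.filter fun x => ∃ u ∈ U, ∃ u' ∈ U, x = u * g * u'

theorem mem_dc {U : Subgroup G} {g x : G} : x ∈ dc U g ↔ ∃ u ∈ U, ∃ u' ∈ U, x = u * g * u' := by
  simp [dc]

theorem self_mem_dc (U : Subgroup G) (g : G) : g ∈ dc U g :=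
  mem_dc.2 ⟨1, U.one_mem, 1, U.one_mem, by simp⟩

theorem mul_mem_dc {U : Subgroup G} {g x u : G} (hx : x ∈ dc U g) (hu : u ∈ U) :
    x * u ∈ dc U g := by
  obtain ⟨a, ha, b, hb, rfl⟩ := mem_dc.1 hx
  exact mem_dc.2 ⟨a, ha, b * u, U.mul_mem hb hu, by group⟩

theorem mem_dc_mul {U : Subgroup G} {g x u : G} (hx : x ∈ dc U g) (hu : u ∈ U) :
    u * x ∈ dc U g := by
  obtain ⟨a, ha, b, hb, rfl⟩ := mem_dc.1 hx
  exact mem_dc.2 ⟨u * a, U.mul_mem hu ha, b, hb, by group⟩

theorem dc_eq_of_mem {U : Subgroup G} {g x : G} (hx : x ∈ dc U g) : dc U x = dc U g := by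
  obtain ⟨a, ha, b, hb, rfl⟩ := mem_dc.1 hx
  ext y
  simp only [mem_dc]
  constructor
  · rintro ⟨c, hc, d, hd, rfl⟩
    exact ⟨c * a, U.mul_mem hc ha, b * d, U.mul_mem hb hd, by group⟩
  · rintro ⟨c, hc, d, hd, rfl⟩
    exact ⟨c * a⁻¹, U.mul_mem hc (U.inv_mem ha), b⁻¹ * d, U.mul_mem (U.inv_mem hb) hd, by group⟩

theorem inv_mem_dc {U : Subgroup G} {g x : G} (hx : x ∈ dc U g) : x⁻¹ ∈ dc U g⁻¹ := by
  obtain ⟨a, ha, b, hb, rfl⟩ := mem_dc.1 hx
  exact mem_dc.2 ⟨b⁻¹, U.inv_mem hb, a⁻¹, U.inv_mem ha, by group⟩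

theorem card_dc_inv (U : Subgroup G) (g : G) : (dc U g⁻¹).card = (dc U g).card := by
  refine Finset.card_bij (fun x _ => x⁻¹) ?_ ?_ ?_
  · intro x hx
    simpa using inv_mem_dc hx
  · intro x _ y _ h
    exact inv_injective h
  · intro y hy
    exact ⟨y⁻¹, inv_mem_dc hy, by simp⟩

/-- A finset stable under right multiplication by `U` has cardinality divisible by `|U|`. -/
theorem card_dvd_of_stable (U : Subgroup G) (A : Finset G) (hA : ∀ x ∈ A, ∀ u ∈ U, x * u ∈ A) :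
    Nat.card U ∣ A.card := by
  classical
  let f : G → G ⧸ U := QuotientGroup.mk
  rw [Finset.card_eq_sum_card_image f A]
  refine Finset.dvd_sum fun c hc => ?_
  obtain ⟨x, hx, rfl⟩ := Finset.mem_image.1 hc
  have : (A.filter fun y => f y = f x).card = Nat.card U := by
    rw [← Nat.card_eq_finsetCard]
    refine Nat.card_congr (Equiv.ofBijective
      (fun u : U => (⟨x * u, by
        refine Finset.mem_filter.2 ⟨hA x hx u u.2, ?_⟩
        exact QuotientGroup.eq.2 (by simp)⟩ : {y // y ∈ A.filter fun y => f y = f x})) ⟨?_, ?_⟩).symm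
    · intro a b h
      have := congrArg Subtype.val h
      exact Subtype.ext (mul_left_cancel this)
    · rintro ⟨y, hy⟩
      have h2 := (Finset.mem_filter.1 hy).2
      have h3 : x⁻¹ * y ∈ U := QuotientGroup.eq.1 h2.symm
      exact ⟨⟨_, h3⟩, Subtype.ext (by simp)⟩
  rw [this]

/-! ### The Hecke operators -/

section Ops

theorem sum_comp' {ι : Type*} (s : Finset ι) (f : ι → V →ₗ[ℂ] V) (g : V →ₗ[ℂ] V) :
    (∑ i ∈ s, f i) ∘ₗ g = ∑ i ∈ s, f i ∘ₗ g := by
  ext v
  simp [LinearMap.sum_apply]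

theorem comp_sum' {ι : Type*} (s : Finset ι) (f : ι → V →ₗ[ℂ] V) (g : V →ₗ[ℂ] V) :
    g ∘ₗ (∑ i ∈ s, f i) = ∑ i ∈ s, g ∘ₗ f i := by
  ext v
  simp [LinearMap.sum_apply, map_sum]

open scoped Classical

variable (ρ : Representation ℂ G V) (U : Subgroup G)

/-- The sum of `ρ` over a double coset. -/
noncomputable def S (g : G) : V →ₗ[ℂ] V := ∑ x ∈ dc U g, ρ x

/-- The Hecke operator. -/
noncomputable def T (g : G) : V →ₗ[ℂ] V := ((Nat.card U : ℂ)⁻¹) • S ρ U g

/-- The averaging idempotent of `U`. -/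
noncomputable def ee : V →ₗ[ℂ] V := T ρ U 1

theorem mem_dc_one {u : G} : u ∈ dc U 1 ↔ u ∈ U := by
  rw [mem_dc]
  constructor
  · rintro ⟨a, ha, b, hb, rfl⟩
    simpa using U.mul_mem ha hb
  · intro hu
    exact ⟨u, hu, 1, U.one_mem, by simp⟩

theorem card_dc_one : (dc U 1).card = Nat.card U := by
  classical
  rw [← Nat.card_eq_finsetCard]
  exact Nat.card_congr (Equiv.subtypeEquivRight fun x => mem_dc_one U)

theorem card_U_ne : (Nat.card U : ℂ) ≠ 0 := Nat.cast_ne_zero.2 Nat.card_pos.ne'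

variable {U}

theorem rho_comp_S {u : G} (hu : u ∈ U) (g : G) : ρ u ∘ₗ S ρ U g = S ρ U g := by
  classical
  refine LinearMap.ext fun v => ?_
  simp only [S, LinearMap.comp_apply, LinearMap.sum_apply, map_sum]
  refine Finset.sum_bij (fun x _ => u * x) (fun x hx => mem_dc_mul hx hu)
    (fun x _ y _ h => mul_left_cancel h) ?_ ?_
  · intro y hy
    refine ⟨u⁻¹ * y, mem_dc_mul hy (U.inv_mem hu), by group⟩
  · intro x _
    rw [map_mul, Module.End.mul_apply]

theorem S_comp_rho {u : G} (hu : u ∈ U) (g : G) : S ρ U g ∘ₗ ρ u = S ρ U g := by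
  classical
  refine LinearMap.ext fun v => ?_
  simp only [S, LinearMap.comp_apply, LinearMap.sum_apply]
  refine Finset.sum_bij (fun x _ => x * u) (fun x hx => mul_mem_dc hx hu)
    (fun x _ y _ h => mul_right_cancel h) ?_ ?_
  · intro y hy
    refine ⟨y * u⁻¹, mul_mem_dc hy (U.inv_mem hu), by group⟩
  · intro x _
    rw [map_mul, Module.End.mul_apply]

theorem ee_comp_S (g : G) : ee ρ U ∘ₗ S ρ U g = S ρ U g := by
  have h : S ρ U 1 ∘ₗ S ρ U g = ((dc U 1).card : ℂ) • S ρ U g := by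
    simp only [S]
    rw [sum_comp']
    rw [show (dc U 1).sum (fun x => ρ x ∘ₗ ∑ x ∈ dc U g, ρ x) =
      (dc U 1).sum (fun _ => ∑ x ∈ dc U g, ρ x) from
        Finset.sum_congr rfl fun x hx => rho_comp_S ρ ((mem_dc_one U).1 hx) g]
    rw [Finset.sum_const, Nat.cast_smul_eq_nsmul]
  rw [ee, T, LinearMap.smul_comp, h, card_dc_one, smul_smul, inv_mul_cancel₀ (card_U_ne U), one_smul]

theorem S_comp_ee (g : G) : S ρ U g ∘ₗ ee ρ U = S ρ U g := by
  have h : S ρ U g ∘ₗ S ρ U 1 = ((dc U 1).card : ℂ) • S ρ U g := by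
    conv_lhs => rw [show S ρ U 1 = ∑ x ∈ dc U 1, ρ x from rfl]
    rw [comp_sum']
    rw [show (dc U 1).sum (fun x => S ρ U g ∘ₗ ρ x) = (dc U 1).sum (fun _ => S ρ U g) from
        Finset.sum_congr rfl fun x hx => S_comp_rho ρ ((mem_dc_one U).1 hx) g]
    rw [Finset.sum_const, Nat.cast_smul_eq_nsmul]
  rw [ee, T, LinearMap.comp_smul, h, card_dc_one, smul_smul, inv_mul_cancel₀ (card_U_ne U), one_smul]

theorem ee_comp_T (g : G) : ee ρ U ∘ₗ T ρ U g = T ρ U g := by
  rw [T, LinearMap.comp_smul, ee_comp_S]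

theorem T_comp_ee (g : G) : T ρ U g ∘ₗ ee ρ U = T ρ U g := by
  rw [T, LinearMap.smul_comp, S_comp_ee]

theorem ee_idem : ee ρ U ∘ₗ ee ρ U = ee ρ U := ee_comp_T ρ 1

theorem rho_comp_ee {u : G} (hu : u ∈ U) : ρ u ∘ₗ ee ρ U = ee ρ U := by
  rw [ee, T, LinearMap.comp_smul, rho_comp_S ρ hu]

theorem ee_comp_rho {u : G} (hu : u ∈ U) : ee ρ U ∘ₗ ρ u = ee ρ U := by
  rw [ee, T, LinearMap.smul_comp, S_comp_rho ρ hu]

theorem rho_ee_apply {u : G} (hu : u ∈ U) (v : V) : ρ u (ee ρ U v) = ee ρ U v :=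
  congrArg (fun f : V →ₗ[ℂ] V => f v) (rho_comp_ee ρ hu)

theorem ee_eq_iff (v : V) : ee ρ U v = v ↔ ∀ u ∈ U, ρ u v = v := by
  constructor
  · intro h u hu
    rw [← h, rho_ee_apply ρ hu]
  · intro h
    have e : S ρ U 1 v = ((dc U 1).card : ℂ) • v := by
      simp only [S, LinearMap.sum_apply]
      rw [Finset.sum_congr rfl fun x hx => h x ((mem_dc_one U).1 hx)]
      rw [Finset.sum_const, Nat.cast_smul_eq_nsmul]
    rw [ee, T, LinearMap.smul_apply, e, card_dc_one, smul_smul, inv_mul_cancel₀ (card_U_ne U),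
      one_smul]

theorem ee_rho_ee_eq {g x : G} (hx : x ∈ dc U g) :
    ee ρ U ∘ₗ ρ x ∘ₗ ee ρ U = ee ρ U ∘ₗ ρ g ∘ₗ ee ρ U := by
  obtain ⟨a, ha, b, hb, rfl⟩ := mem_dc.1 hx
  refine LinearMap.ext fun v => ?_
  simp only [LinearMap.comp_apply]
  rw [map_mul, map_mul, Module.End.mul_apply, Module.End.mul_apply, rho_ee_apply ρ hb]
  exact congrArg (fun f : V →ₗ[ℂ] V => f (ρ g (ee ρ U v))) (ee_comp_rho ρ ha)

/-- `S g = |UgU| e ρ(g) e`. -/
theorem S_eq (g : G) : S ρ U g = ((dc U g).card : ℂ) • (ee ρ U ∘ₗ ρ g ∘ₗ ee ρ U) := by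
  have h1 : S ρ U g = ee ρ U ∘ₗ S ρ U g ∘ₗ ee ρ U := by
    rw [S_comp_ee, ee_comp_S]
  rw [h1]
  conv_lhs => rw [show S ρ U g = ∑ x ∈ dc U g, ρ x from rfl]
  rw [sum_comp', comp_sum']
  rw [Finset.sum_congr rfl fun x hx => ee_rho_ee_eq ρ hx]
  rw [Finset.sum_const, Nat.cast_smul_eq_nsmul]

theorem T_eq (g : G) : T ρ U g =
    ((dc U g).card / (Nat.card U : ℂ)) • (ee ρ U ∘ₗ ρ g ∘ₗ ee ρ U) := by
  rw [T, S_eq, smul_smul, div_eq_inv_mul]

theorem card_dc_pos (g : G) : (((dc U g).card : ℕ) : ℂ) ≠ 0 :=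
  Nat.cast_ne_zero.2 (Finset.card_pos.2 ⟨g, self_mem_dc U g⟩).ne'

theorem T_of_mem_dc {g x : G} (hx : x ∈ dc U g) : T ρ U x = T ρ U g := by
  simp only [T, S, dc_eq_of_mem hx]

/-! ### Products -/

/-- The product of two double coset sums. -/
theorem S_comp_S_eq (a b : G) :
    S ρ U a ∘ₗ S ρ U b =
      ∑ z : G, ((((dc U a).filter fun x => x⁻¹ * z ∈ dc U b).card : ℕ) : ℂ) • ρ z := by
  classical
  have e : S ρ U a ∘ₗ S ρ U b = ∑ x ∈ dc U a, ∑ y ∈ dc U b, ρ (x * y) := by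
    simp only [S]
    rw [sum_comp']
    refine Finset.sum_congr rfl fun x _ => ?_
    rw [comp_sum']
    refine Finset.sum_congr rfl fun y _ => ?_
    rw [map_mul, Module.End.mul_eq_comp]
  rw [e]
  have e2 : ∀ x : G, ∑ y ∈ dc U b, ρ (x * y) = ∑ z : G, (if x⁻¹ * z ∈ dc U b then ρ z else 0) := by
    intro x
    rw [← Finset.sum_filter]
    refine Finset.sum_bij (fun y _ => x * y) ?_ (fun y _ y' _ h => mul_left_cancel h) ?_ ?_
    · intro y hy
      simpa using hy
    · intro z hz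
      refine ⟨x⁻¹ * z, by simpa using hz, by group⟩
    · intro y _
      rfl
  rw [Finset.sum_congr rfl fun x _ => e2 x, Finset.sum_comm]
  refine Finset.sum_congr rfl fun z _ => ?_
  rw [Finset.card_filter, Nat.cast_sum, Finset.sum_smul]
  refine Finset.sum_congr rfl fun x _ => ?_
  by_cases h : x⁻¹ * z ∈ dc U b <;> simp [h]

theorem count_of_mem_dc (a b : G) {n z : G} (hz : z ∈ dc U n) :
    ((dc U a).filter fun x => x⁻¹ * z ∈ dc U b).card =
      ((dc U a).filter fun x => x⁻¹ * n ∈ dc U b).card := by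
  classical
  obtain ⟨u, hu, u', hu', rfl⟩ := mem_dc.1 hz
  refine Finset.card_bij (fun x _ => u⁻¹ * x) ?_ (fun x _ y _ h => mul_left_cancel h) ?_
  · intro x hx
    obtain ⟨h1, h2⟩ := Finset.mem_filter.1 hx
    refine Finset.mem_filter.2 ⟨mem_dc_mul h1 (U.inv_mem hu), ?_⟩
    have e : (u⁻¹ * x)⁻¹ * n = x⁻¹ * (u * n * u') * u'⁻¹ := by group
    rw [e]
    exact mul_mem_dc h2 (U.inv_mem hu')
  · intro y hy
    obtain ⟨h1, h2⟩ := Finset.mem_filter.1 hy
    refine ⟨u * y, Finset.mem_filter.2 ⟨mem_dc_mul h1 hu, ?_⟩, by group⟩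
    have e : (u * y)⁻¹ * (u * n * u') = y⁻¹ * n * u' := by group
    rw [e]
    exact mul_mem_dc h2 hu'

theorem card_dvd_count (a b n : G) :
    Nat.card U ∣ ((dc U a).filter fun x => x⁻¹ * n ∈ dc U b).card := by
  classical
  refine card_dvd_of_stable U _ ?_
  intro x hx u hu
  obtain ⟨h1, h2⟩ := Finset.mem_filter.1 hx
  refine Finset.mem_filter.2 ⟨mul_mem_dc h1 hu, ?_⟩
  have e : (x * u)⁻¹ * n = u⁻¹ * (x⁻¹ * n) := by group
  rw [e]
  exact mem_dc_mul h2 (U.inv_mem hu)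

variable (N : Subgroup G)

/-- A set of representatives of double cosets. -/
def IsPartition (U N : Subgroup G) : Prop := ∀ g : G, ∃! n : N, g ∈ dc U (n : G)

variable {N}

/-- The representative of a double coset. -/
noncomputable def nu (hN : IsPartition U N) (g : G) : N := (hN g).choose

theorem nu_spec (hN : IsPartition U N) (g : G) : g ∈ dc U (nu hN g : G) := (hN g).choose_spec.1

theorem nu_eq (hN : IsPartition U N) {g : G} {n : N} (h : g ∈ dc U (n : G)) : nu hN g = n :=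
  ((hN g).choose_spec.2 n h).symm

theorem sum_partition (hN : IsPartition U N) {A : Type*} [AddCommMonoid A] (f : G → A) :
    ∑ g : G, f g = ∑ n : N, ∑ g ∈ dc U (n : G), f g := by
  classical
  rw [← Finset.sum_fiberwise (s := Finset.univ) (g := nu hN) (f := f)]
  refine Finset.sum_congr rfl fun n _ => ?_
  refine Finset.sum_congr ?_ fun _ _ => rfl
  ext g
  simp only [Finset.mem_filter, Finset.mem_univ, true_and]
  constructor
  · rintro rfl
    exact nu_spec hN g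
  · exact nu_eq hN

/-- The product of two Hecke operators is a natural combination of Hecke operators. -/
theorem T_comp_T (hN : IsPartition U N) (a b : G) :
    ∃ k : N → ℕ, T ρ U a ∘ₗ T ρ U b = ∑ n : N, (k n : ℂ) • T ρ U (n : G) := by
  classical
  have h1 : S ρ U a ∘ₗ S ρ U b = ∑ n : N,
      ((((dc U a).filter fun x => x⁻¹ * (n : G) ∈ dc U b).card : ℕ) : ℂ) • S ρ U (n : G) := by
    rw [S_comp_S_eq, sum_partition hN]
    refine Finset.sum_congr rfl fun n _ => ?_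
    simp only [S]
    rw [Finset.smul_sum]
    refine Finset.sum_congr rfl fun z hz => ?_
    rw [count_of_mem_dc a b hz]
  refine ⟨fun n => ((dc U a).filter fun x => x⁻¹ * (n : G) ∈ dc U b).card / Nat.card U, ?_⟩
  simp only [T]
  rw [LinearMap.smul_comp, LinearMap.comp_smul, h1, Finset.smul_sum, Finset.smul_sum]
  refine Finset.sum_congr rfl fun n _ => ?_
  rw [smul_smul, smul_smul, smul_smul]
  congr 1
  obtain ⟨c, hc⟩ := card_dvd_count (U := U) a b (n : G)
  rw [hc, Nat.mul_div_cancel_left _ Nat.card_pos]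
  have := card_U_ne U
  push_cast
  field_simp

/-- When all of `UaU · UbU` lies in `UcU` and the counts match, `T a T b = T c`. -/
theorem T_comp_T_of_subset {a b c : G} (hsub : ∀ x ∈ dc U a, ∀ y ∈ dc U b, x * y ∈ dc U c)
    (hcard : (dc U a).card * (dc U b).card = Nat.card U * (dc U c).card) :
    T ρ U a ∘ₗ T ρ U b = T ρ U c := by
  classical
  have hzero : ∀ z, z ∉ dc U c → ((dc U a).filter fun x => x⁻¹ * z ∈ dc U b).card = 0 := by
    intro z hz
    rw [Finset.card_eq_zero, Finset.filter_eq_empty_iff]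
    intro x hx hy
    apply hz
    have := hsub x hx _ hy
    simpa using this
  have hconst : ∀ z ∈ dc U c, ((dc U a).filter fun x => x⁻¹ * z ∈ dc U b).card =
      ((dc U a).filter fun x => x⁻¹ * c ∈ dc U b).card := fun z hz => count_of_mem_dc a b hz
  have htotal : (dc U a).card * (dc U b).card = (dc U c).card *
      ((dc U a).filter fun x => x⁻¹ * c ∈ dc U b).card := by
    have h1 : (dc U a).card * (dc U b).card =
        ∑ z : G, ((dc U a).filter fun x => x⁻¹ * z ∈ dc U b).card := by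
      have e1 : ∀ z : G, ((dc U a).filter fun x => x⁻¹ * z ∈ dc U b).card =
          ∑ x ∈ dc U a, if x⁻¹ * z ∈ dc U b then 1 else 0 := fun z => Finset.card_filter _ _
      simp only [e1]
      rw [Finset.sum_comm]
      rw [Finset.card_eq_sum_ones (dc U a), Finset.sum_mul]
      refine Finset.sum_congr rfl fun x _ => ?_
      rw [one_mul, ← Finset.card_filter]
      refine Finset.card_bij (fun y _ => x * y) ?_ (fun y _ y' _ h => mul_left_cancel h) ?_
      · intro y hy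
        simpa using hy
      · intro z hz
        exact ⟨x⁻¹ * z, by simpa using hz, by group⟩
    rw [h1, ← Finset.sum_filter_add_sum_filter_not Finset.univ (fun z => z ∈ dc U c)]
    have h2 : ∑ z ∈ Finset.univ.filter (fun z => z ∉ dc U c),
        ((dc U a).filter fun x => x⁻¹ * z ∈ dc U b).card = 0 :=
      Finset.sum_eq_zero fun z hz => hzero z (Finset.mem_filter.1 hz).2
    rw [h2, add_zero, Finset.sum_congr rfl fun z hz => hconst z (Finset.mem_filter.1 hz).2,
      Finset.sum_const, smul_eq_mul]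
    congr 1
    congr 1
    ext z
    simp
  have hmu : ((dc U a).filter fun x => x⁻¹ * c ∈ dc U b).card = Nat.card U := by
    have h3 : (dc U c).card * ((dc U a).filter fun x => x⁻¹ * c ∈ dc U b).card =
        (dc U c).card * Nat.card U := by
      rw [← htotal, hcard, mul_comm]
    exact Nat.eq_of_mul_eq_mul_left (Finset.card_pos.2 ⟨c, self_mem_dc U c⟩) h3
  have h4 : S ρ U a ∘ₗ S ρ U b = (Nat.card U : ℂ) • S ρ U c := by
    rw [S_comp_S_eq]
    rw [← Finset.sum_filter_add_sum_filter_not Finset.univ (fun z => z ∈ dc U c)]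
    have h5 : ∑ z ∈ Finset.univ.filter (fun z => z ∉ dc U c),
        (((dc U a).filter fun x => x⁻¹ * z ∈ dc U b).card : ℂ) • ρ z = 0 :=
      Finset.sum_eq_zero fun z hz => by rw [hzero z (Finset.mem_filter.1 hz).2]; simp
    rw [h5, add_zero, S, Finset.smul_sum]
    refine Finset.sum_congr ?_ fun z hz => ?_
    · ext z
      simp
    · rw [hconst z (by simpa using hz), hmu]
  simp only [T]
  rw [LinearMap.smul_comp, LinearMap.comp_smul, h4, smul_smul, smul_smul]
  congr 1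
  have := card_U_ne U
  field_simp

/-! ### Integrality -/

/-- The `ℤ`-span of the Hecke operators and the identity. -/
noncomputable def Lat (ρ : Representation ℂ G V) (U : Subgroup G) :
    Submodule ℤ (V →ₗ[ℂ] V) :=
  Submodule.span ℤ (insert 1 (Set.range (T ρ U)))

theorem T_mem_Lat (g : G) : T ρ U g ∈ Lat ρ U :=
  Submodule.subset_span (Or.inr ⟨g, rfl⟩)

theorem one_mem_Lat : (1 : V →ₗ[ℂ] V) ∈ Lat ρ U := Submodule.subset_span (Or.inl rfl)

theorem natCast_smul_mem_Lat (k : ℕ) {X : V →ₗ[ℂ] V} (h : X ∈ Lat ρ U) :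
    (k : ℂ) • X ∈ Lat ρ U := by
  have : (k : ℂ) • X = (k : ℤ) • X := by
    ext v
    simp [Nat.cast_smul_eq_nsmul]
  rw [this]
  exact Submodule.smul_mem _ _ h

theorem mul_mem_Lat (hN : IsPartition U N) {X Y : V →ₗ[ℂ] V} (hX : X ∈ Lat ρ U)
    (hY : Y ∈ Lat ρ U) : X * Y ∈ Lat ρ U := by
  induction hX using Submodule.span_induction with
  | zero => simpa using Submodule.zero_mem _
  | add a b _ _ ha hb => rw [add_mul]; exact Submodule.add_mem _ ha hb
  | smul c a _ ha => rw [smul_mul_assoc]; exact Submodule.smul_mem _ _ ha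
  | mem X hX =>
    induction hY using Submodule.span_induction with
    | zero => simpa using Submodule.zero_mem _
    | add a b _ _ ha hb => rw [mul_add]; exact Submodule.add_mem _ ha hb
    | smul c a _ ha => rw [mul_smul_comm]; exact Submodule.smul_mem _ _ ha
    | mem Y hY =>
      rcases hX with rfl | ⟨a, rfl⟩
      · rw [one_mul]
        exact Submodule.subset_span hY
      · rcases hY with rfl | ⟨b, rfl⟩
        · rw [mul_one]
          exact T_mem_Lat ρ a
        · obtain ⟨k, hk⟩ := T_comp_T ρ hN a b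
          rw [Module.End.mul_eq_comp, hk]
          exact Submodule.sum_mem _ fun n _ => natCast_smul_mem_Lat ρ _ (T_mem_Lat ρ _)

theorem isIntegral_of_mem_Lat (hN : IsPartition U N) {X : V →ₗ[ℂ] V} (hX : X ∈ Lat ρ U) :
    IsIntegral ℤ X := by
  let A : Subalgebra ℤ (V →ₗ[ℂ] V) := Submodule.toSubalgebra (Lat ρ U) (one_mem_Lat ρ)
    (fun _ _ hx hy => mul_mem_Lat ρ hN hx hy)
  refine IsIntegral.of_mem_of_fg A ?_ X hX
  exact Submodule.fg_span (Set.Finite.insert _ (Set.finite_range _))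

section FD

variable [FiniteDimensional ℂ V]

theorem isIntegral_trace_of_mem_Lat (hN : IsPartition U N) {X : V →ₗ[ℂ] V} (hX : X ∈ Lat ρ U) :
    IsIntegral ℤ (LinearMap.trace ℂ V X) := by
  obtain ⟨p, hp, h⟩ := isIntegral_of_mem_Lat ρ hN hX
  exact Cfsg.Agent.Lib.Char.TraceFormula.isIntegral_trace_of_aeval_eq_zero X p hp
    (by rwa [Polynomial.aeval_def])

theorem isIntegral_eigen_of_mem_Lat (hN : IsPartition U N) {X : V →ₗ[ℂ] V} (hX : X ∈ Lat ρ U)
    {v : V} (hv : v ≠ 0) {t : ℂ} (ht : X v = t • v) : IsIntegral ℤ t := by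
  obtain ⟨p, hp, h⟩ := isIntegral_of_mem_Lat ρ hN hX
  have hev : Module.End.HasEigenvector X t v := ⟨Module.End.mem_eigenspace_iff.2 ht, hv⟩
  have h1 : Polynomial.aeval X (p.map (algebraMap ℤ ℂ)) = 0 := by
    rw [Polynomial.aeval_map_algebraMap]
    rwa [Polynomial.aeval_def]
  have h2 := Module.End.aeval_apply_of_hasEigenvector (p := p.map (algebraMap ℤ ℂ)) hev
  rw [h1, LinearMap.zero_apply] at h2
  have h3 : (p.map (algebraMap ℤ ℂ)).eval t = 0 := by
    have := h2.symm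
    rw [smul_eq_zero] at this
    exact this.resolve_right hv
  refine ⟨p, hp, ?_⟩
  rw [← h3, Polynomial.eval_map]

end FD

end Ops

/-! ### A Nakayama argument -/

theorem nak {ι : Type*} [Fintype ι] (v : ι → ℂ) (κ q : ℕ) (hq : 2 ≤ q) (hc : Nat.Coprime κ q)
    (a : ι → ι → ℂ) (ha : ∀ i j, IsIntegral ℤ (a i j))
    (h : ∀ i, (κ : ℂ) * v i = q * ∑ j, a i j * v j) : v = 0 := by
  classical
  let R := integralClosure ℤ ℂ
  let N : Submodule R ℂ := Submodule.span R (Set.range v)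
  let I : Ideal R := Ideal.span {(q : R)}
  have hNfg : N.FG := Submodule.fg_span (Set.finite_range v)
  have hv : ∀ i, v i ∈ N := fun i => Submodule.subset_span ⟨i, rfl⟩
  have hle : N ≤ I • N := by
    refine Submodule.span_le.2 ?_
    rintro _ ⟨i, rfl⟩
    let α : ℤ := Nat.gcdA κ q
    let β : ℤ := Nat.gcdB κ q
    have hb : (κ : ℤ) * α + (q : ℤ) * β = 1 := by
      have := Nat.gcd_eq_gcd_ab κ q
      rw [hc] at this
      simpa [α, β] using this.symm
    have hbC : (κ : ℂ) * (α : ℂ) + (q : ℂ) * (β : ℂ) = 1 := by exact_mod_cast hb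
    let y : ℂ := ∑ j, ((α : ℂ) * a i j) * v j + (β : ℂ) * v i
    have hy : y ∈ N := by
      refine N.add_mem (N.sum_mem fun j _ => ?_) ?_
      · have hint : IsIntegral ℤ ((α : ℂ) * a i j) := (isIntegral_algebraMap (R := ℤ) (x := α)).mul (ha i j)
        exact N.smul_of_tower_mem (⟨_, hint⟩ : R) (hv j)
      · have hint : IsIntegral ℤ (β : ℂ) := isIntegral_algebraMap (R := ℤ) (x := β)
        exact N.smul_of_tower_mem (⟨_, hint⟩ : R) (hv i)
    have e : v i = (q : R) • y := by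
      have e1 : ((q : R) • y : ℂ) = (q : ℂ) * y := by
        rw [Subalgebra.smul_def]
        simp
      rw [e1]
      have e2 : (q : ℂ) * ∑ j, ((α : ℂ) * a i j) * v j = (α : ℂ) * ((κ : ℂ) * v i) := by
        rw [h i, Finset.mul_sum, Finset.mul_sum, Finset.mul_sum]
        refine Finset.sum_congr rfl fun j _ => ?_
        ring
      calc v i = ((κ : ℂ) * (α : ℂ) + (q : ℂ) * (β : ℂ)) * v i := by rw [hbC, one_mul]
        _ = (α : ℂ) * ((κ : ℂ) * v i) + (q : ℂ) * ((β : ℂ) * v i) := by ring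
        _ = (q : ℂ) * y := by rw [← e2]; simp only [y]; ring
    rw [SetLike.mem_coe, e]
    exact Submodule.smul_mem_smul (Ideal.mem_span_singleton_self _) hy
  obtain ⟨r, hr1, hr2⟩ := Submodule.exists_sub_one_mem_and_smul_eq_zero_of_fg_of_le_smul I N hNfg hle
  obtain ⟨s, hs⟩ := Ideal.mem_span_singleton'.1 hr1
  have hr0 : r ≠ 0 := by
    rintro rfl
    have h1 : (s : ℂ) * (q : ℂ) = -1 := by
      have := congrArg (Subtype.val) hs
      simpa using this
    have h2 : IsIntegral ℤ ((1 : ℕ) / (q : ℂ)) := by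
      have h3 : ((1 : ℕ) / (q : ℂ)) = -(s : ℂ) := by
        have hq0 : (q : ℂ) ≠ 0 := by
          have : q ≠ 0 := by omega
          exact_mod_cast this
        rw [div_eq_iff hq0, Nat.cast_one]
        linear_combination h1
      rw [h3]
      exact s.2.neg
    have h4 := natCast_dvd_of_isIntegral_div (by omega) h2
    have := Nat.le_of_dvd one_pos h4
    omega
  funext i
  have h1 := hr2 _ (hv i)
  rw [Subalgebra.smul_def] at h1
  have h2 : (r : ℂ) ≠ 0 := fun h => hr0 (Subtype.ext h)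
  simpa [h2] using h1

/-! ### The reproducing formula -/

section Main

open scoped Classical

variable [FiniteDimensional ℂ V] (ρ : Representation ℂ G V) [ρ.IsIrreducible] {U N : Subgroup G}

theorem trace_corner {A : V →ₗ[ℂ] V} (hA1 : ee ρ U ∘ₗ A = A) (hA2 : A ∘ₗ ee ρ U = A) (x : G) :
    LinearMap.trace ℂ V (A ∘ₗ ρ x) = LinearMap.trace ℂ V (A ∘ₗ (ee ρ U ∘ₗ ρ x ∘ₗ ee ρ U)) := by
  have h1 : A ∘ₗ (ee ρ U ∘ₗ ρ x ∘ₗ ee ρ U) = (A ∘ₗ ee ρ U ∘ₗ ρ x) ∘ₗ ee ρ U := by
    simp only [LinearMap.comp_assoc]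
  have h2 : ee ρ U ∘ₗ A ∘ₗ ee ρ U ∘ₗ ρ x = A ∘ₗ ρ x := by
    rw [← LinearMap.comp_assoc, hA1, ← LinearMap.comp_assoc, hA2]
  have h3 : LinearMap.trace ℂ V ((A ∘ₗ ee ρ U ∘ₗ ρ x) ∘ₗ ee ρ U) =
      LinearMap.trace ℂ V (ee ρ U ∘ₗ A ∘ₗ ee ρ U ∘ₗ ρ x) := LinearMap.trace_comp_comm' _ _
  rw [h1, h3, h2]

/-- The reproducing formula in the corner. -/
theorem schur_corner (hN : IsPartition U N) (b : N → ℕ)
    (hb : ∀ n : N, (dc U (n : G)).card * b n = Nat.card U ^ 2) {A : V →ₗ[ℂ] V}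
    (hA1 : ee ρ U ∘ₗ A = A) (hA2 : A ∘ₗ ee ρ U = A) :
    ∑ n : N, ((b n : ℂ) * LinearMap.trace ℂ V (A ∘ₗ T ρ U (n : G)⁻¹)) • T ρ U (n : G) =
      ((Nat.card G : ℂ) / (finrank ℂ V : ℂ)) • A := by
  have h0 := sum_trace_smul ρ A
  have h1 : ∑ g : G, LinearMap.trace ℂ V (A ∘ₗ ρ g⁻¹) • ρ g =
      ((Nat.card G : ℂ) / (finrank ℂ V : ℂ)) • A := by
    rw [← h0]
    refine Finset.sum_equiv (Equiv.inv G) (by simp) ?_
    intro g _
    simp
  have h2 : ∑ g : G, LinearMap.trace ℂ V (A ∘ₗ ρ g⁻¹) • (ee ρ U ∘ₗ ρ g ∘ₗ ee ρ U) =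
      ((Nat.card G : ℂ) / (finrank ℂ V : ℂ)) • A := by
    have h3 := congrArg (fun X : V →ₗ[ℂ] V => ee ρ U ∘ₗ X ∘ₗ ee ρ U) h1
    simp only [LinearMap.smul_comp, LinearMap.comp_smul, hA2, hA1] at h3
    rw [← h3, sum_comp', comp_sum']
    refine Finset.sum_congr rfl fun g _ => ?_
    rw [LinearMap.smul_comp, LinearMap.comp_smul]
  rw [← h2, sum_partition hN]
  refine Finset.sum_congr rfl fun n _ => ?_
  have h4 : ∀ g ∈ dc U (n : G), LinearMap.trace ℂ V (A ∘ₗ ρ g⁻¹) • (ee ρ U ∘ₗ ρ g ∘ₗ ee ρ U) =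
      LinearMap.trace ℂ V (A ∘ₗ ρ (n : G)⁻¹) • (ee ρ U ∘ₗ ρ (n : G) ∘ₗ ee ρ U) := by
    intro g hg
    rw [trace_corner ρ hA1 hA2 g⁻¹, trace_corner ρ hA1 hA2 (n : G)⁻¹,
      ee_rho_ee_eq ρ (inv_mem_dc hg), ee_rho_ee_eq ρ hg]
  rw [Finset.sum_congr rfl h4, Finset.sum_const]
  have hdc : ((dc U (n : G)).card : ℂ) ≠ 0 := card_dc_pos (U := U) (n : G)
  have hU : (Nat.card U : ℂ) ≠ 0 := card_U_ne U
  have hb2 : ((dc U (n : G)).card : ℂ) * (b n : ℂ) = (Nat.card U : ℂ) ^ 2 := by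
    exact_mod_cast hb n
  have e1 : T ρ U (n : G)⁻¹ = (((dc U (n : G)).card : ℂ) / (Nat.card U : ℂ)) •
      (ee ρ U ∘ₗ ρ (n : G)⁻¹ ∘ₗ ee ρ U) := by
    rw [T_eq, card_dc_inv]
  rw [e1, LinearMap.comp_smul, map_smul, T_eq, smul_smul, trace_corner ρ hA1 hA2 (n : G)⁻¹,
    ← Nat.cast_smul_eq_nsmul ℂ, smul_smul, smul_eq_mul]
  congr 1
  have hb3 : (b n : ℂ) = (Nat.card U : ℂ) ^ 2 / ((dc U (n : G)).card : ℂ) := by
    rw [eq_div_iff hdc, mul_comm]
    exact hb2
  rw [hb3]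
  field_simp

end Main

end Cfsg.Agent.Lib.StChar.HeckeA
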