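import Mathlib
import Cfsg.Agent.Lib.StChar.HeckeA

/-!
# The dimension of the `U`-fixed points: first step

If the leading Hecke operators are `T(n₀ h)`, `h` in an abelian group normalising `U`, and `|G|/χ(1)` is
prime to `q`, then the fixed points of `U` form at most a line.
-/

set_option autoImplicit false
set_option linter.unusedSectionVars false

namespace Cfsg.Agent.Lib.StChar.HeckeB

open Module Cfsg.Agent.Lib.StChar.HeckeA Cfsg.Agent.Lib.Char.Integrality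
open scoped Classical

variable {G : Type*} [Group G] [Fintype G] {V : Type*} [AddCommGroup V] [Module ℂ V]
  (ρ : Representation ℂ G V) {U N H : Subgroup G}

theorem S_mul_right {h : G} (h1 : ∀ u ∈ U, h⁻¹ * u * h ∈ U) (h2 : ∀ u ∈ U, h * u * h⁻¹ ∈ U) (g : G) :
    S ρ U (g * h) = S ρ U g ∘ₗ ρ h := by
  refine LinearMap.ext fun v => ?_
  simp only [S, LinearMap.comp_apply, LinearMap.sum_apply]
  symm
  refine Finset.sum_bij (fun x _ => x * h) ?_ (fun x _ y _ e => mul_right_cancel e) ?_ ?_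
  · intro x hx
    obtain ⟨a, ha, b, hb, rfl⟩ := mem_dc.1 hx
    exact mem_dc.2 ⟨a, ha, h⁻¹ * b * h, h1 b hb, by group⟩
  · intro y hy
    obtain ⟨a, ha, b, hb, rfl⟩ := mem_dc.1 hy
    exact ⟨a * g * (h * b * h⁻¹), mem_dc.2 ⟨a, ha, _, h2 b hb, rfl⟩, by group⟩
  · intro x _
    rw [map_mul, Module.End.mul_apply]

theorem S_mul_left {h : G} (h1 : ∀ u ∈ U, h⁻¹ * u * h ∈ U) (h2 : ∀ u ∈ U, h * u * h⁻¹ ∈ U) (g : G) :
    S ρ U (h * g) = ρ h ∘ₗ S ρ U g := by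
  refine LinearMap.ext fun v => ?_
  simp only [S, LinearMap.comp_apply, LinearMap.sum_apply, map_sum]
  symm
  refine Finset.sum_bij (fun x _ => h * x) ?_ (fun x _ y _ e => mul_left_cancel e) ?_ ?_
  · intro x hx
    obtain ⟨a, ha, b, hb, rfl⟩ := mem_dc.1 hx
    exact mem_dc.2 ⟨h * a * h⁻¹, h2 a ha, b, hb, by group⟩
  · intro y hy
    obtain ⟨a, ha, b, hb, rfl⟩ := mem_dc.1 hy
    exact ⟨h⁻¹ * a * h * g * b, mem_dc.2 ⟨_, h1 a ha, b, hb, rfl⟩, by group⟩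
  · intro x _
    rw [map_mul, Module.End.mul_apply]

theorem T_mul_right {h : G} (h1 : ∀ u ∈ U, h⁻¹ * u * h ∈ U) (h2 : ∀ u ∈ U, h * u * h⁻¹ ∈ U) (g : G) :
    T ρ U (g * h) = T ρ U g ∘ₗ ρ h := by
  rw [T, S_mul_right ρ h1 h2, T, LinearMap.smul_comp]

theorem T_mul_left {h : G} (h1 : ∀ u ∈ U, h⁻¹ * u * h ∈ U) (h2 : ∀ u ∈ U, h * u * h⁻¹ ∈ U) (g : G) :
    T ρ U (h * g) = ρ h ∘ₗ T ρ U g := by
  rw [T, S_mul_left ρ h1 h2, T, LinearMap.comp_smul]

/-- The data of the Hecke argument. -/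
structure Data (U N H : Subgroup G) (n₀ : G) (q : ℕ) (b : N → ℕ) : Prop where
  part : IsPartition U N
  hb : ∀ n : N, (dc U (n : G)).card * b n = Nat.card U ^ 2
  q2 : 2 ≤ q
  norm : ∀ h ∈ H, ∀ u ∈ U, h * u * h⁻¹ ∈ U
  comm : ∀ h ∈ H, ∀ k ∈ H, h * k = k * h
  n0 : n₀ ∈ N
  H_le : H ≤ N
  b_one : ∀ h ∈ H, ∀ n : N, (n : G) = n₀ * h → b n = 1
  b_dvd : ∀ n : N, (∀ h ∈ H, (n : G) ≠ n₀ * h) → q ∣ b n

variable {n₀ : G} {q : ℕ} {b : N → ℕ}

theorem Data.norm' (hd : Data U N H n₀ q b) {h : G} (hh : h ∈ H) {u : G} (hu : u ∈ U) :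
    h⁻¹ * u * h ∈ U := by
  have := hd.norm h⁻¹ (H.inv_mem hh) u hu
  simpa using this

section Main

variable [FiniteDimensional ℂ V] [ρ.IsIrreducible]

/-- The span of the leading Hecke operators. -/
noncomputable def W0 (ρ : Representation ℂ G V) (U H : Subgroup G) (n₀ : G) :
    Submodule ℂ (V →ₗ[ℂ] V) :=
  Submodule.span ℂ (Set.range fun h : H => T ρ U (n₀ * h))

theorem T_mem_W0 (hd : Data U N H n₀ q b) {κ : ℕ}
    (hκ : (κ : ℂ) = (Nat.card G : ℂ) / (finrank ℂ V : ℂ)) (hc : Nat.Coprime κ q) (x : N) :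
    T ρ U (x : G) ∈ W0 ρ U H n₀ := by
  by_contra hx
  obtain ⟨f, hf1, hf2⟩ := Submodule.exists_le_ker_of_notMem hx
  have hfW : ∀ h ∈ H, f (T ρ U (n₀ * h)) = 0 := fun h hh =>
    hf2 (Submodule.subset_span ⟨⟨h, hh⟩, rfl⟩)
  let M : N → Prop := fun n => ∃ h ∈ H, (n : G) = n₀ * h
  have hdvd : ∀ n : N, ¬ M n → q ∣ b n := fun n hn => hd.b_dvd n fun h hh he => hn ⟨h, hh, he⟩
  let c : N → ℕ := fun n => b n / q
  have hc1 : ∀ n : N, ¬ M n → b n = q * c n := fun n hn => (Nat.mul_div_cancel' (hdvd n hn)).symm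
  let v : N → ℂ := fun n => f (T ρ U (n : G))
  have hv0 : ∀ n : N, M n → v n = 0 := by
    rintro n ⟨h, hh, he⟩
    simp only [v, he]
    exact hfW h hh
  let a : N → N → ℂ := fun y n =>
    (c n : ℂ) * LinearMap.trace ℂ V (T ρ U (y : G) ∘ₗ T ρ U (n : G)⁻¹)
  have ha : ∀ y n, IsIntegral ℤ (a y n) := by
    intro y n
    refine IsIntegral.mul ?_ ?_
    · exact_mod_cast (isIntegral_algebraMap (R := ℤ) (A := ℂ) (x := ((c n : ℕ) : ℤ)))
    · exact isIntegral_trace_of_mem_Lat ρ hd.part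
        (mul_mem_Lat ρ hd.part (T_mem_Lat ρ _) (T_mem_Lat ρ _))
  have hrel : ∀ y, (κ : ℂ) * v y = q * ∑ n, a y n * v n := by
    intro y
    have h1 := schur_corner ρ hd.part b hd.hb (A := T ρ U (y : G)) (ee_comp_T ρ _) (T_comp_ee ρ _)
    have h2 := congrArg f h1
    rw [map_sum, map_smul, ← hκ, smul_eq_mul] at h2
    simp only [v]
    rw [← h2, Finset.mul_sum]
    refine Finset.sum_congr rfl fun n _ => ?_
    rw [map_smul, smul_eq_mul]
    by_cases hn : M n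
    · have := hv0 n hn
      simp only [v] at this
      rw [this]
      simp
    · rw [hc1 n hn]
      simp only [a]
      push_cast
      ring
  have hv := nak v κ q hd.q2 hc a ha hrel
  exact hf1 (congrFun hv x)

/-- Every operator of the corner lies in the span of the leading Hecke operators. -/
theorem corner_mem_W0 (hd : Data U N H n₀ q b) {κ : ℕ}
    (hκ : (κ : ℂ) = (Nat.card G : ℂ) / (finrank ℂ V : ℂ)) (hc : Nat.Coprime κ q) {A : V →ₗ[ℂ] V}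
    (hA1 : ee ρ U ∘ₗ A = A) (hA2 : A ∘ₗ ee ρ U = A) : A ∈ W0 ρ U H n₀ := by
  have h1 := schur_corner ρ hd.part b hd.hb hA1 hA2
  rw [← hκ] at h1
  have hκ0 : (κ : ℂ) ≠ 0 := by
    rw [hκ]
    refine div_ne_zero (Nat.cast_ne_zero.2 Nat.card_pos.ne') ?_
    exact Nat.cast_ne_zero.2 (finrank_ne_zero_of_isIrreducible ρ)
  have h2 : A = (κ : ℂ)⁻¹ • ((κ : ℂ) • A) := by
    rw [smul_smul, inv_mul_cancel₀ hκ0, one_smul]
  rw [h2, ← h1]
  refine Submodule.smul_mem _ _ (Submodule.sum_mem _ fun n _ => Submodule.smul_mem _ _ ?_)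
  exact T_mem_W0 ρ hd hκ hc n

/-- The fixed points of `U` are the image of `ee`. -/
theorem exists_line (hd : Data U N H n₀ q b) {κ : ℕ}
    (hκ : (κ : ℂ) = (Nat.card G : ℂ) / (finrank ℂ V : ℂ)) (hc : Nat.Coprime κ q)
    (hV : ∃ v : V, v ≠ 0 ∧ ∀ u ∈ U, ρ u v = v) :
    ∃ w : V, w ≠ 0 ∧ (∀ u ∈ U, ρ u w = w) ∧ (∀ h ∈ H, ∃ c : ℂ, ρ h w = c • w) ∧
      ∀ y : V, (∀ u ∈ U, ρ u y = y) → ∃ c : ℂ, y = c • w := by
  let Fx : Submodule ℂ V :=
    { carrier := {y | ∀ u ∈ U, ρ u y = y}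
      add_mem' := by
        intro a b' ha hb' u hu
        rw [map_add, ha u hu, hb' u hu]
      zero_mem' := by
        intro u _
        exact map_zero _
      smul_mem' := by
        intro c a ha u hu
        rw [map_smul, ha u hu] }
  have hFx : ∀ y, y ∈ Fx ↔ ∀ u ∈ U, ρ u y = y := fun y => Iff.rfl
  have hinv : ∀ h : H, ∀ y ∈ Fx, ρ (h : G) y ∈ Fx := by
    intro h y hy u hu
    have e : ρ u (ρ (h : G) y) = ρ (h : G) (ρ ((h : G)⁻¹ * u * h) y) := by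
      rw [← Module.End.mul_apply, ← map_mul, ← Module.End.mul_apply, ← map_mul]
      congr 2
      group
    rw [e, hy _ (hd.norm' h.2 hu)]
  obtain ⟨v₀, hv₀, hv₀'⟩ := hV
  have : Nontrivial Fx := ⟨⟨⟨v₀, hv₀'⟩, 0, fun h => hv₀ (congrArg Subtype.val h)⟩⟩
  obtain ⟨w, hw, hwc⟩ := Cfsg.Agent.Lib.Char.SmallDeg.exists_common_eigenvector (ι := H) _ Fx
    (fun h => (ρ (h : G)).restrict (hinv h)) rfl (by
      intro i j
      refine LinearMap.ext fun y => Subtype.ext ?_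
      show ρ (i : G) (ρ (j : G) y) = ρ (j : G) (ρ (i : G) y)
      rw [← Module.End.mul_apply, ← map_mul, ← Module.End.mul_apply, ← map_mul,
        hd.comm _ i.2 _ j.2])
  have hw0 : (w : V) ≠ 0 := fun h => hw (Subtype.ext h)
  have hwH : ∀ h ∈ H, ∃ c : ℂ, ρ h (w : V) = c • (w : V) := by
    intro h hh
    obtain ⟨c, hc'⟩ := hwc ⟨h, hh⟩
    exact ⟨c, congrArg Subtype.val hc'⟩
  have hfix : ∀ y : V, (∀ u ∈ U, ρ u y = y) → ee ρ U y = y := fun y hy => (ee_eq_iff ρ y).2 hy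
  obtain ⟨φ, hφ⟩ : ∃ φ : V →ₗ[ℂ] ℂ, φ (w : V) = 1 := by
    by_contra hno
    push Not at hno
    have : ∀ f : Module.Dual ℂ V, f (w : V) = 0 := by
      intro f
      by_contra hf
      apply hno ((f (w : V))⁻¹ • f)
      simp [hf]
    exact hw0 ((Module.forall_dual_apply_eq_zero_iff ℂ _).1 this)
  set z : V := T ρ U n₀ (w : V) with hz
  have hspan : ∀ X ∈ W0 ρ U H n₀, ∃ c : ℂ, X (w : V) = c • z := by
    intro X hX
    induction hX using Submodule.span_induction with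
    | zero => exact ⟨0, by simp⟩
    | add a b' _ _ ha hb' =>
      obtain ⟨c₁, h₁⟩ := ha
      obtain ⟨c₂, h₂⟩ := hb'
      exact ⟨c₁ + c₂, by rw [LinearMap.add_apply, h₁, h₂, add_smul]⟩
    | smul c a _ ha =>
      obtain ⟨c₁, h₁⟩ := ha
      exact ⟨c * c₁, by rw [LinearMap.smul_apply, h₁, smul_smul]⟩
    | mem X hX =>
      obtain ⟨⟨h, hh⟩, rfl⟩ := hX
      obtain ⟨c, hc'⟩ := hwH h hh
      refine ⟨c, ?_⟩
      show T ρ U (n₀ * h) (w : V) = _
      rw [T_mul_right ρ (fun u hu => hd.norm' hh hu) (hd.norm h hh), LinearMap.comp_apply, hc',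
        map_smul]
  have hall : ∀ y : V, (∀ u ∈ U, ρ u y = y) → ∃ c : ℂ, y = c • z := by
    intro y hy
    let A : V →ₗ[ℂ] V := ee ρ U ∘ₗ (φ.smulRight y) ∘ₗ ee ρ U
    have hA1 : ee ρ U ∘ₗ A = A := by
      simp only [A]
      rw [← LinearMap.comp_assoc, ee_idem]
    have hA2 : A ∘ₗ ee ρ U = A := by
      simp only [A]
      rw [LinearMap.comp_assoc, LinearMap.comp_assoc, ee_idem]
    have hAw : A (w : V) = y := by
      simp only [A, LinearMap.comp_apply, LinearMap.smulRight_apply]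
      rw [hfix _ w.2, hφ, one_smul, hfix y hy]
    obtain ⟨c, hc'⟩ := hspan A (corner_mem_W0 ρ hd hκ hc hA1 hA2)
    exact ⟨c, by rw [← hAw, hc']⟩
  obtain ⟨c₀, hc₀⟩ := hall _ w.2
  have hc₀0 : c₀ ≠ 0 := by
    rintro rfl
    rw [zero_smul] at hc₀
    exact hw0 hc₀
  refine ⟨w, hw0, w.2, hwH, fun y hy => ?_⟩
  obtain ⟨c, hc'⟩ := hall y hy
  refine ⟨c * c₀⁻¹, ?_⟩
  rw [hc', hc₀, smul_smul, mul_assoc, inv_mul_cancel₀ hc₀0, mul_one]

end Main

end Cfsg.Agent.Lib.StChar.HeckeB
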