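import Mathlib
import Cfsg.Agent.Lib.StChar.HeckeB

/-!
# The Hecke operators on a line of `U`-fixed points

If the fixed points of `U` form a line, the Hecke operators act by algebraic integers `t g`. The reproducing
formula gives a congruence for `t n₀ t n₀⁻¹`, and the quadratic relation for a simple reflection forces the
torus to act trivially and `t e = -1`.
-/

set_option autoImplicit false
set_option linter.unusedSectionVars false

namespace Cfsg.Agent.Lib.StChar.HeckeC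

open Module Cfsg.Agent.Lib.StChar.HeckeA Cfsg.Agent.Lib.StChar.HeckeB
open Cfsg.Agent.Lib.Char.Integrality
open scoped Classical

variable {G : Type*} [Group G] [Fintype G] {V : Type*} [AddCommGroup V] [Module ℂ V]
  [FiniteDimensional ℂ V] (ρ : Representation ℂ G V) {U N H : Subgroup G}

/-- The line of fixed points. -/
structure Line (ρ : Representation ℂ G V) (U : Subgroup G) (w : V) : Prop where
  ne : w ≠ 0
  fix : ∀ u ∈ U, ρ u w = w
  span : ∀ y : V, (∀ u ∈ U, ρ u y = y) → ∃ c : ℂ, y = c • w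

variable {ρ} {w : V}

theorem Line.ee_apply (hl : Line ρ U w) : ee ρ U w = w := (ee_eq_iff ρ w).2 hl.fix

theorem fix_T (g : G) (y : V) : ∀ u ∈ U, ρ u (T ρ U g y) = T ρ U g y := by
  intro u hu
  have h1 : ρ u ∘ₗ T ρ U g = T ρ U g := by
    rw [T, LinearMap.comp_smul, rho_comp_S ρ hu]
  exact congrArg (fun f : V →ₗ[ℂ] V => f y) h1

theorem Line.exists_t (hl : Line ρ U w) (hN : IsPartition U N) (g : G) :
    ∃ t : ℂ, T ρ U g w = t • w ∧ IsIntegral ℤ t := by
  obtain ⟨t, ht⟩ := hl.span _ (fix_T g w)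
  exact ⟨t, ht, isIntegral_eigen_of_mem_Lat ρ hN (T_mem_Lat ρ g) hl.ne ht⟩

theorem Line.trace_corner (hl : Line ρ U w) {A : V →ₗ[ℂ] V} (hA2 : A ∘ₗ ee ρ U = A) {a : ℂ}
    (ha : A w = a • w) : LinearMap.trace ℂ V A = a := by
  obtain ⟨φ, hφ⟩ : ∃ φ : V →ₗ[ℂ] ℂ, φ w = 1 := by
    by_contra hno
    push Not at hno
    have : ∀ f : Module.Dual ℂ V, f w = 0 := by
      intro f
      by_contra hf
      apply hno ((f w)⁻¹ • f)
      simp [hf]
    exact hl.ne ((Module.forall_dual_apply_eq_zero_iff ℂ _).1 this)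
  have h1 : A = a • ((φ ∘ₗ ee ρ U).smulRight w) := by
    refine LinearMap.ext fun x => ?_
    obtain ⟨c, hc⟩ := hl.span (ee ρ U x) (fun u hu => rho_ee_apply ρ hu x)
    have e1 : A x = A (ee ρ U x) := (congrArg (fun f : V →ₗ[ℂ] V => f x) hA2).symm
    rw [e1, hc, map_smul, ha]
    simp only [LinearMap.smul_apply, LinearMap.smulRight_apply, LinearMap.comp_apply]
    rw [hc, map_smul, hφ]
    simp [smul_smul, mul_comm]
  rw [h1, map_smul, trace_smulRight]
  simp [hl.ee_apply, hφ]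

variable {n₀ : G} {q : ℕ} {b : N → ℕ}

variable [ρ.IsIrreducible]

/-- The identity `∑ b(n) t(n⁻¹) t(n) = κ`. -/
theorem Line.sum_identity (hl : Line ρ U w) (hN : IsPartition U N)
    (hb : ∀ n : N, (dc U (n : G)).card * b n = Nat.card U ^ 2) {t : G → ℂ}
    (ht : ∀ g, T ρ U g w = t g • w) :
    ∑ n : N, (b n : ℂ) * t (n : G)⁻¹ * t (n : G) =
      (Nat.card G : ℂ) / (finrank ℂ V : ℂ) := by
  have h1 := schur_corner ρ hN b hb (A := ee ρ U) (ee_idem ρ) (ee_idem ρ)
  have h2 := congrArg (fun f : V →ₗ[ℂ] V => f w) h1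
  simp only [LinearMap.sum_apply, LinearMap.smul_apply] at h2
  rw [hl.ee_apply] at h2
  have h3 : ∀ n : N, ((b n : ℂ) * LinearMap.trace ℂ V (ee ρ U ∘ₗ T ρ U (n : G)⁻¹)) •
      T ρ U (n : G) w = ((b n : ℂ) * t (n : G)⁻¹ * t (n : G)) • w := by
    intro n
    rw [ee_comp_T, hl.trace_corner (T_comp_ee ρ _) (ht _), ht, smul_smul]
  rw [Finset.sum_congr rfl fun n _ => h3 n, ← Finset.sum_smul] at h2
  have h4 := sub_eq_zero.2 h2
  rw [← sub_smul, smul_eq_zero] at h4
  exact sub_eq_zero.1 (h4.resolve_right hl.ne)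

/-- The congruence: `t n₀ t n₀⁻¹` is not divisible by `q`. -/
theorem Line.key (hl : Line ρ U w) (hd : Data U N H n₀ q b) {κ : ℕ}
    (hκ : (κ : ℂ) = (Nat.card G : ℂ) / (finrank ℂ V : ℂ)) (hc : Nat.Coprime κ q) {t : G → ℂ}
    (ht : ∀ g, T ρ U g w = t g • w) (hi : ∀ g, IsIntegral ℤ (t g))
    (cc : G → ℂ) (hcc : ∀ h ∈ H, ρ h w = cc h • w) {z : ℂ} (hz : IsIntegral ℤ z)
    (he : t n₀ * t n₀⁻¹ = q * z) : False := by
  have hid := hl.sum_identity hd.part hd.hb ht
  rw [← hκ] at hid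
  let M : N → Prop := fun n => ∃ h ∈ H, (n : G) = n₀ * h
  have hcinv : ∀ h ∈ H, cc h⁻¹ * cc h = 1 := by
    intro h hh
    have h1 : ρ h⁻¹ (ρ h w) = w := by
      rw [← Module.End.mul_apply, ← map_mul]
      simp
    rw [hcc h hh, map_smul, hcc _ (H.inv_mem hh), smul_smul] at h1
    have h2 := sub_eq_zero.2 h1
    rw [← one_smul ℂ w, smul_smul, mul_one, ← sub_smul, smul_eq_zero] at h2
    have h3 := sub_eq_zero.1 (h2.resolve_right hl.ne)
    rw [mul_comm]
    exact h3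
  have hMt : ∀ n : N, M n → (b n : ℂ) * t (n : G)⁻¹ * t (n : G) = t n₀ * t n₀⁻¹ := by
    rintro n ⟨h, hh, he⟩
    have hh1 := hd.b_one h hh n he
    have h1 : T ρ U (n₀ * h) w = (cc h * t n₀) • w := by
      rw [T_mul_right ρ (fun u hu => hd.norm' hh hu) (hd.norm h hh), LinearMap.comp_apply, hcc h hh,
        map_smul, ht, smul_smul]
    have h2 : T ρ U (h⁻¹ * n₀⁻¹) w = (t n₀⁻¹ * cc h⁻¹) • w := by
      have hh' := H.inv_mem hh
      rw [T_mul_left ρ (fun u hu => hd.norm' hh' hu) (hd.norm _ hh'), LinearMap.comp_apply, ht,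
        map_smul, hcc _ hh', smul_smul]
    have h3 : (t (n₀ * h) - cc h * t n₀) • w = 0 := by
      rw [sub_smul, ← ht, h1, sub_self]
    have h4 : (t (h⁻¹ * n₀⁻¹) - t n₀⁻¹ * cc h⁻¹) • w = 0 := by
      rw [sub_smul, ← ht, h2, sub_self]
    have h5 := sub_eq_zero.1 ((smul_eq_zero.1 h3).resolve_right hl.ne)
    have h6 := sub_eq_zero.1 ((smul_eq_zero.1 h4).resolve_right hl.ne)
    have e1 : (n : G)⁻¹ = h⁻¹ * n₀⁻¹ := by rw [he, mul_inv_rev]
    rw [e1, h6, he, h5, hh1]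
    have h7 := hcinv h hh
    push_cast
    linear_combination (t n₀ * t n₀⁻¹) * h7
  have hdvd : ∀ n : N, ¬ M n → q ∣ b n := fun n hn => hd.b_dvd n fun h hh he => hn ⟨h, hh, he⟩
  have hsplit : (κ : ℂ) = q * (((Finset.univ.filter M).card : ℂ) * z +
      ∑ n ∈ Finset.univ.filter (fun n => ¬ M n), ((b n / q : ℕ) : ℂ) * t (n : G)⁻¹ * t (n : G)) := by
    rw [← hid, ← Finset.sum_filter_add_sum_filter_not Finset.univ M, mul_add, Finset.mul_sum]
    congr 1
    · rw [Finset.sum_congr rfl fun n hn => hMt n (Finset.mem_filter.1 hn).2, Finset.sum_const,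
        nsmul_eq_mul, he]
      ring
    · refine Finset.sum_congr rfl fun n hn => ?_
      have h1 := Nat.mul_div_cancel' (hdvd n (Finset.mem_filter.1 hn).2)
      have h2 : (b n : ℂ) = (q : ℂ) * ((b n / q : ℕ) : ℂ) := by
        exact_mod_cast h1.symm
      rw [h2]
      ring
  have hq0 : (q : ℂ) ≠ 0 := by
    have : q ≠ 0 := by have := hd.q2; omega
    exact_mod_cast this
  have hint : IsIntegral ℤ ((κ : ℂ) / (q : ℂ)) := by
    rw [hsplit, mul_div_cancel_left₀ _ hq0]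
    refine IsIntegral.add ?_ ?_
    · refine IsIntegral.mul ?_ hz
      exact_mod_cast (isIntegral_algebraMap (R := ℤ) (A := ℂ) (x := (((Finset.univ.filter M).card : ℕ) : ℤ)))
    · refine IsIntegral.sum _ fun n _ => ?_
      refine IsIntegral.mul (IsIntegral.mul ?_ (hi _)) (hi _)
      exact_mod_cast (isIntegral_algebraMap (R := ℤ) (A := ℂ) (x := ((b n / q : ℕ) : ℤ)))
  have hq' : q ≠ 0 := by have := hd.q2; omega
  have h1 := natCast_dvd_of_isIntegral_div hq' hint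
  have h2 : q ∣ 1 := by
    have := Nat.dvd_gcd h1 (dvd_refl q)
    rwa [hc] at this
  have h3 := Nat.le_of_dvd one_pos h2
  have := hd.q2
  omega

/-! ### Cells and the quadratic relation -/

section Quad

variable {F : Type*} [Field F] [Fintype F]

/-- `U n U` is parametrised by `x(s) n u`. -/
structure IsCell (U : Subgroup G) (x : F → G) (n : G) : Prop where
  mem : ∀ s, x s ∈ U
  surj : ∀ u ∈ U, ∃ s, n⁻¹ * ((x s)⁻¹ * u) * n ∈ U
  inj : ∀ s s', n⁻¹ * ((x s)⁻¹ * x s') * n ∈ U → s = s'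

omit [FiniteDimensional ℂ V] [ρ.IsIrreducible] in
theorem IsCell.T_apply {x : F → G} {n : G} (hc : IsCell U x n) {y : V}
    (hy : ∀ u ∈ U, ρ u y = y) : T ρ U n y = ∑ s, ρ (x s) (ρ n y) := by
  have h1 : S ρ U n y = ∑ p : F × U, ρ (x p.1 * n * (p.2 : G)) y := by
    simp only [S, LinearMap.sum_apply]
    symm
    refine Finset.sum_bij (fun p _ => x p.1 * n * (p.2 : G)) ?_ ?_ ?_ ?_
    · intro p _
      exact mem_dc.2 ⟨x p.1, hc.mem p.1, p.2, p.2.2, rfl⟩
    · rintro ⟨s, u⟩ _ ⟨s', u'⟩ _ he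
      simp only at he
      have h2 : n⁻¹ * ((x s')⁻¹ * x s) * n = (u' : G) * (u : G)⁻¹ := by
        rw [eq_mul_inv_iff_mul_eq]
        have e : n⁻¹ * ((x s')⁻¹ * x s) * n * (u : G) = n⁻¹ * (x s')⁻¹ * (x s * n * (u : G)) := by
          group
        rw [e, he]
        group
      have h3 : s' = s := hc.inj s' s (by
        rw [h2]
        exact U.mul_mem u'.2 (U.inv_mem u.2))
      subst h3
      have h4 : (u : G) = u' := mul_left_cancel he
      rw [Subtype.ext h4]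
    · intro z hz
      obtain ⟨a, ha, a', ha', rfl⟩ := mem_dc.1 hz
      obtain ⟨s, hs⟩ := hc.surj a ha
      refine ⟨(s, ⟨n⁻¹ * ((x s)⁻¹ * a) * n * a', U.mul_mem hs ha'⟩), Finset.mem_univ _, ?_⟩
      simp only
      group
    · intro p _
      rfl
  rw [T, LinearMap.smul_apply, h1, Fintype.sum_prod_type]
  have h2 : ∀ s : F, ∑ u : U, ρ (x s * n * (u : G)) y = (Nat.card U : ℂ) • ρ (x s) (ρ n y) := by
    intro s
    have : ∀ u : U, ρ (x s * n * (u : G)) y = ρ (x s) (ρ n y) := by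
      intro u
      rw [map_mul, map_mul, Module.End.mul_apply, Module.End.mul_apply, hy _ u.2]
    rw [Finset.sum_congr rfl fun u _ => this u, Finset.sum_const, Finset.card_univ,
      Nat.card_eq_fintype_card, Nat.cast_smul_eq_nsmul]
  rw [Finset.sum_congr rfl fun s _ => h2 s, ← Finset.smul_sum, smul_smul,
    inv_mul_cancel₀ (card_U_ne U), one_smul]

/-- The quadratic relation. -/
theorem quad_rel {x : F → G} {e : G} (hadd : ∀ s s', x s * x s' = x (s + s'))
    (he : IsCell U x e) (he' : IsCell U x e⁻¹) {a b' : Fˣ → F} {ns : Fˣ → G}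
    (hns : ∀ d, IsCell U x (ns d))
    (hconj : ∀ d : Fˣ, e * x ((d : F)⁻¹) * e⁻¹ = x (a d) * ns d * x (b' d)) {y : V}
    (hy : ∀ u ∈ U, ρ u y = y) :
    T ρ U e (T ρ U e⁻¹ y) = (Fintype.card F : ℂ) • y + ∑ d : Fˣ, T ρ U (ns d) y := by
  have hx0 : x 0 = 1 := by
    have := hadd 0 0
    rw [add_zero] at this
    exact mul_left_cancel (a := x 0) (by rw [this, mul_one])
  rw [he.T_apply (fix_T e⁻¹ y), he'.T_apply hy]
  have h1 : ∀ s : F, ρ (x s) (ρ e (∑ s', ρ (x s') (ρ e⁻¹ y))) =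
      ∑ s', ρ (x s) (ρ (e * x s' * e⁻¹) y) := by
    intro s
    rw [map_sum, map_sum]
    refine Finset.sum_congr rfl fun s' _ => ?_
    rw [map_mul, map_mul, Module.End.mul_apply, Module.End.mul_apply]
  rw [Finset.sum_congr rfl fun s _ => h1 s, Finset.sum_comm]
  have hsplit : ∑ s' : F, ∑ s : F, ρ (x s) (ρ (e * x s' * e⁻¹) y) =
      ∑ s : F, ρ (x s) (ρ (e * x 0 * e⁻¹) y) +
        ∑ d : Fˣ, ∑ s : F, ρ (x s) (ρ (e * x ((d : F)⁻¹) * e⁻¹) y) := by
    rw [← Finset.add_sum_erase Finset.univ _ (Finset.mem_univ (0 : F))]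
    congr 1
    symm
    refine Finset.sum_bij (fun d _ => ((d : F)⁻¹)) ?_ ?_ ?_ ?_
    · intro d _
      simp
    · intro d _ d' _ h
      exact Units.ext (inv_injective h)
    · intro s hs
      have hs0 : s ≠ 0 := by simpa using hs
      exact ⟨(Units.mk0 s hs0)⁻¹, Finset.mem_univ _, by simp⟩
    · intro d _
      rfl
  rw [hsplit]
  congr 1
  · rw [hx0]
    have e1 : e * 1 * e⁻¹ = 1 := by group
    rw [e1, map_one]
    have e2 : ∀ s : F, ρ (x s) ((1 : V →ₗ[ℂ] V) y) = y := fun s => hy _ (he.mem s)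
    rw [Finset.sum_congr rfl fun s _ => e2 s, Finset.sum_const, Finset.card_univ,
      Nat.cast_smul_eq_nsmul]
  · refine Finset.sum_congr rfl fun d _ => ?_
    rw [(hns d).T_apply hy]
    rw [hconj d]
    have e3 : ∀ s : F, ρ (x s) (ρ (x (a d) * ns d * x (b' d)) y) =
        ρ (x (s + a d)) (ρ (ns d) y) := by
      intro s
      rw [map_mul, map_mul, Module.End.mul_apply, Module.End.mul_apply, hy _ (he.mem _),
        ← hadd, map_mul, Module.End.mul_apply]
    rw [Finset.sum_congr rfl fun s _ => e3 s]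
    exact Fintype.sum_equiv (Equiv.addRight (a d)) _ _ (fun s => rfl)

end Quad

/-! ### One simple reflection -/

section SimpleRefl

variable {F : Type*} [Field F] [Fintype F]

/-- The data attached to one simple reflection. -/
structure Simple (U H : Subgroup G) (n₀ : G) (x : F → G) (e : G) (hm : Fˣ →* G) (k : G) : Prop where
  add : ∀ s s', x s * x s' = x (s + s')
  cell : IsCell U x e
  cell' : IsCell U x e⁻¹
  cellh : ∀ d, IsCell U x (hm d * e)
  conj : ∀ d : Fˣ, ∃ a b' : F, e * x ((d : F)⁻¹) * e⁻¹ = x a * (hm d * e) * x b'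
  hm_mem : ∀ d, hm d ∈ H
  k_mem : k ∈ H
  inv_eq : e⁻¹ = e * k
  sub₁ : ∀ x' ∈ dc U e, ∀ y' ∈ dc U (e⁻¹ * n₀), x' * y' ∈ dc U n₀
  card₁ : (dc U e).card * (dc U (e⁻¹ * n₀)).card = Nat.card U * (dc U n₀).card

variable {x : F → G} {e : G} {hm : Fˣ →* G} {k : G}

omit [FiniteDimensional ℂ V] [ρ.IsIrreducible] in
theorem Simple.T₁ (hs : Simple U H n₀ x e hm k) :
    T ρ U e ∘ₗ T ρ U (e⁻¹ * n₀) = T ρ U n₀ := T_comp_T_of_subset ρ hs.sub₁ hs.card₁

omit [FiniteDimensional ℂ V] [ρ.IsIrreducible] in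
theorem Simple.T₂ (hs : Simple U H n₀ x e hm k) :
    T ρ U (n₀⁻¹ * e) ∘ₗ T ρ U e⁻¹ = T ρ U n₀⁻¹ := by
  refine T_comp_T_of_subset ρ ?_ ?_
  · intro x' hx' y' hy'
    have h1 : (e⁻¹ * n₀)⁻¹ = n₀⁻¹ * e := by group
    have h2 := inv_mem_dc hx'
    have h3 := inv_mem_dc hy'
    rw [← h1, inv_inv] at h2
    rw [inv_inv] at h3
    have h4 := inv_mem_dc (hs.sub₁ _ h3 _ h2)
    simpa using h4
  · have h1 : (e⁻¹ * n₀)⁻¹ = n₀⁻¹ * e := by group
    rw [← h1, card_dc_inv, card_dc_inv, card_dc_inv, mul_comm]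
    exact hs.card₁

variable {n₀ : G} {q : ℕ} {b : N → ℕ}

/-- The scalar form of the quadratic relation. -/
theorem Simple.scalar (hs : Simple U H n₀ x e hm k) (hl : Line ρ U w) (hd : Data U N H n₀ q b)
    {t : G → ℂ} (ht : ∀ g, T ρ U g w = t g • w) (cc : G → ℂ) (hcc : ∀ h ∈ H, ρ h w = cc h • w) :
    t e⁻¹ * t e = (Fintype.card F : ℂ) + t e * ∑ d : Fˣ, cc (hm d) := by
  choose a b' hab using hs.conj
  have h1 := quad_rel (ρ := ρ) (U := U) hs.add hs.cell hs.cell' hs.cellh hab hl.fix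
  rw [ht, map_smul, ht, smul_smul] at h1
  have h2 : ∀ d : Fˣ, T ρ U (hm d * e) w = (t e * cc (hm d)) • w := by
    intro d
    have hh := hs.hm_mem d
    rw [T_mul_left ρ (fun u hu => hd.norm' hh hu) (hd.norm _ hh), LinearMap.comp_apply, ht, map_smul,
      hcc _ hh, smul_smul]
  rw [Finset.sum_congr rfl fun d _ => h2 d, ← Finset.sum_smul, ← Finset.mul_sum] at h1
  rw [← add_smul] at h1
  have h3 := sub_eq_zero.2 h1
  rw [← sub_smul, smul_eq_zero] at h3
  exact sub_eq_zero.1 (h3.resolve_right hl.ne)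

/-- The characters are multiplicative on the torus. -/
theorem cc_mul (hl : Line ρ U w) {cc : G → ℂ} (hcc : ∀ h ∈ H, ρ h w = cc h • w) {h h' : G}
    (hh : h ∈ H) (hh' : h' ∈ H) : cc (h * h') = cc h * cc h' := by
  have h1 : ρ (h * h') w = (cc h * cc h') • w := by
    rw [map_mul, Module.End.mul_apply, hcc h' hh', map_smul, hcc h hh, smul_smul, mul_comm]
  rw [hcc _ (H.mul_mem hh hh')] at h1
  have h3 := sub_eq_zero.2 h1
  rw [← sub_smul, smul_eq_zero] at h3
  exact sub_eq_zero.1 (h3.resolve_right hl.ne)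

theorem cc_one (hl : Line ρ U w) {cc : G → ℂ} (hcc : ∀ h ∈ H, ρ h w = cc h • w) : cc 1 = 1 := by
  have h1 := hcc 1 H.one_mem
  rw [map_one, Module.End.one_apply] at h1
  nth_rewrite 1 [← one_smul ℂ w] at h1
  have h3 := sub_eq_zero.2 h1
  rw [← sub_smul, smul_eq_zero] at h3
  exact (sub_eq_zero.1 (h3.resolve_right hl.ne)).symm

theorem Simple.factor (hs : Simple U H n₀ x e hm k) (hl : Line ρ U w)
    {t : G → ℂ} (ht : ∀ g, T ρ U g w = t g • w) :
    t n₀ * t n₀⁻¹ = t e⁻¹ * t e * (t (e⁻¹ * n₀) * t (n₀⁻¹ * e)) := by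
  have h1 : t n₀ = t e * t (e⁻¹ * n₀) := by
    have h2 := congrArg (fun f : V →ₗ[ℂ] V => f w) (hs.T₁ (ρ := ρ))
    simp only [LinearMap.comp_apply] at h2
    rw [ht, map_smul, ht, ht, smul_smul] at h2
    have h3 := sub_eq_zero.2 h2
    rw [← sub_smul, smul_eq_zero] at h3
    rw [← sub_eq_zero.1 (h3.resolve_right hl.ne)]
    ring
  have h4 : t n₀⁻¹ = t (n₀⁻¹ * e) * t e⁻¹ := by
    have h2 := congrArg (fun f : V →ₗ[ℂ] V => f w) (hs.T₂ (ρ := ρ))
    simp only [LinearMap.comp_apply] at h2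
    rw [ht, map_smul, ht, ht, smul_smul] at h2
    have h3 := sub_eq_zero.2 h2
    rw [← sub_smul, smul_eq_zero] at h3
    rw [← sub_eq_zero.1 (h3.resolve_right hl.ne)]
    ring
  rw [h1, h4]
  ring

/-- The torus acts trivially along a simple root. -/
theorem Simple.char_trivial (hs : Simple U H n₀ x e hm k) (hl : Line ρ U w)
    (hd : Data U N H n₀ (Fintype.card F) b) {κ : ℕ}
    (hκ : (κ : ℂ) = (Nat.card G : ℂ) / (finrank ℂ V : ℂ)) (hc : Nat.Coprime κ (Fintype.card F))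
    {t : G → ℂ} (ht : ∀ g, T ρ U g w = t g • w) (hi : ∀ g, IsIntegral ℤ (t g))
    (cc : G → ℂ) (hcc : ∀ h ∈ H, ρ h w = cc h • w) (d : Fˣ) : cc (hm d) = 1 := by
  let f : Fˣ →* ℂ :=
    { toFun := fun d => cc (hm d)
      map_one' := by rw [map_one]; exact cc_one hl hcc
      map_mul' := fun a c => by rw [map_mul]; exact cc_mul hl hcc (hs.hm_mem a) (hs.hm_mem c) }
  by_cases hf : f = 1
  · exact congrArg (fun g : Fˣ →* ℂ => g d) hf
  · exfalso
    have h0 : ∑ d : Fˣ, f d = 0 := sum_hom_units_eq_zero f hf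
    have h1 := hs.scalar hl hd ht cc hcc
    have h2 : ∑ d : Fˣ, cc (hm d) = 0 := h0
    rw [h2, mul_zero, add_zero] at h1
    refine hl.key hd hκ hc ht hi cc hcc (z := t (e⁻¹ * n₀) * t (n₀⁻¹ * e)) ((hi _).mul (hi _)) ?_
    rw [hs.factor hl ht, h1]

/-- When the torus acts trivially, `T e` acts by `-1`. -/
theorem Simple.t_eq (hs : Simple U H n₀ x e hm k) (hl : Line ρ U w)
    (hd : Data U N H n₀ (Fintype.card F) b) {κ : ℕ}
    (hκ : (κ : ℂ) = (Nat.card G : ℂ) / (finrank ℂ V : ℂ)) (hc : Nat.Coprime κ (Fintype.card F))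
    {t : G → ℂ} (ht : ∀ g, T ρ U g w = t g • w) (hi : ∀ g, IsIntegral ℤ (t g))
    (htriv : ∀ h ∈ H, ρ h w = w) : t e = -1 := by
  have hcc : ∀ h ∈ H, ρ h w = (fun _ => (1 : ℂ)) h • w := fun h hh => by simp [htriv h hh]
  have h1 := hs.scalar hl hd ht _ hcc
  have hk : t e⁻¹ = t e := by
    have h2 : T ρ U e⁻¹ w = t e • w := by
      rw [hs.inv_eq, T_mul_right ρ (fun u hu => hd.norm' hs.k_mem hu) (hd.norm _ hs.k_mem),
        LinearMap.comp_apply, htriv _ hs.k_mem, ht]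
    rw [ht] at h2
    have h3 := sub_eq_zero.2 h2
    rw [← sub_smul, smul_eq_zero] at h3
    exact sub_eq_zero.1 (h3.resolve_right hl.ne)
  have hcard : (∑ _d : Fˣ, (1 : ℂ)) = (Fintype.card F : ℂ) - 1 := by
    rw [Finset.sum_const, Finset.card_univ, Fintype.card_units, nsmul_eq_mul, mul_one,
      Nat.cast_sub Fintype.card_pos, Nat.cast_one]
  simp only [hcard, hk] at h1
  have h2 : (t e - (Fintype.card F : ℂ)) * (t e + 1) = 0 := by
    linear_combination h1
  rcases mul_eq_zero.1 h2 with h3 | h3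
  · exfalso
    have h4 := sub_eq_zero.1 h3
    refine hl.key hd hκ hc ht hi _ hcc (z := t e * (t (e⁻¹ * n₀) * t (n₀⁻¹ * e)))
      ((hi _).mul ((hi _).mul (hi _))) ?_
    rw [hs.factor hl ht, hk]
    nth_rewrite 1 [h4]
    ring
  · linear_combination h3

end SimpleRefl

/-! ### The final form -/

section Final

variable {F : Type*} [Field F] [Fintype F] {ι : Type*} {n₀ : G} {b : N → ℕ}
  {x : ι → F → G} {e : ι → G} {hm : ι → Fˣ →* G} {k : ι → G}

/-- The torus acts trivially and all `T e` act by `-1`. -/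
theorem final (hs : ∀ i, Simple U H n₀ (x i) (e i) (hm i) (k i)) (hl : Line ρ U w)
    (hd : Data U N H n₀ (Fintype.card F) b)
    (hgen : H ≤ Subgroup.closure (⋃ i, Set.range (hm i))) {κ : ℕ}
    (hκ : (κ : ℂ) = (Nat.card G : ℂ) / (finrank ℂ V : ℂ)) (hc : Nat.Coprime κ (Fintype.card F))
    (hwH : ∀ h ∈ H, ∃ c : ℂ, ρ h w = c • w) :
    (∀ h ∈ H, ρ h w = w) ∧ ∀ i, T ρ U (e i) w = -w := by
  choose t ht hi using fun g => hl.exists_t hd.part g
  choose! cc hcc using hwH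
  have hmem : ∀ i d, hm i d ∈ H := fun i d => (hs i).hm_mem d
  have h1 : ∀ h ∈ Subgroup.closure (⋃ i, Set.range (hm i)), ρ h w = w := by
    intro h hh
    induction hh using Subgroup.closure_induction with
    | mem y hy =>
      obtain ⟨i, d, rfl⟩ := Set.mem_iUnion.1 hy
      rw [hcc _ (hmem i d), (hs i).char_trivial hl hd hκ hc ht hi cc hcc d, one_smul]
    | one => simp
    | mul a c _ _ ha hc' => rw [map_mul, Module.End.mul_apply, hc', ha]
    | inv a _ ha =>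
      have := congrArg (ρ a⁻¹) ha
      rw [← Module.End.mul_apply, ← map_mul, inv_mul_cancel, map_one, Module.End.one_apply] at this
      exact this.symm
  have h2 : ∀ h ∈ H, ρ h w = w := fun h hh => h1 h (hgen hh)
  refine ⟨h2, fun i => ?_⟩
  rw [ht, (hs i).t_eq hl hd hκ hc ht hi h2]
  simp

/-- A subgroup containing `U` and a simple reflection fixes no nonzero vector. -/
theorem fixed_eq_zero (hs : ∀ i, Simple U H n₀ (x i) (e i) (hm i) (k i)) (hl : Line ρ U w)
    (hT : ∀ i, T ρ U (e i) w = -w) {P : Subgroup G} (hU : U ≤ P) {i : ι} (hi : e i ∈ P) {y : V}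
    (hy : ∀ g ∈ P, ρ g y = y) : y = 0 := by
  obtain ⟨c, rfl⟩ := hl.span y (fun u hu => hy u (hU hu))
  by_cases hc : c = 0
  · simp [hc]
  exfalso
  have hfix : ρ (e i) w = w := by
    have := hy _ hi
    rw [map_smul] at this
    exact smul_right_injective V hc this
  have h1 := (hs i).cell.T_apply (ρ := ρ) hl.fix
  rw [hT i, hfix] at h1
  have h2 : ∀ s : F, ρ (x i s) w = w := fun s => hl.fix _ ((hs i).cell.mem s)
  rw [Finset.sum_congr rfl fun s _ => h2 s, Finset.sum_const, Finset.card_univ] at h1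
  have h3 : ((Fintype.card F : ℂ) + 1) • w = 0 := by
    rw [add_smul, one_smul, Nat.cast_smul_eq_nsmul, ← h1, neg_add_cancel]
  rw [smul_eq_zero] at h3
  rcases h3 with h3 | h3
  · have : ((Fintype.card F + 1 : ℕ) : ℂ) = 0 := by exact_mod_cast h3
    exact (Nat.cast_ne_zero.2 (Nat.succ_ne_zero _)) this
  · exact hl.ne h3

end Final

end Cfsg.Agent.Lib.StChar.HeckeC
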