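import Cfsg.Agent.Lib.StChar.Top
import Cfsg.Agent.Lib.StChar.HeckeC

/-!
# The double cosets of `U` in a Chevalley group

The group `N` gives a partition of the group into `U`-double cosets, with `|U n U| = q^ℓ(n) |U|`.
-/

set_option autoImplicit false
set_option linter.unusedSectionVars false

namespace Cfsg.Agent.Lib.StChar.Inst

open Cfsg Cfsg.Lie Cfsg.Agent.Lib.ChevBN.Elem Cfsg.Agent.Lib.ChevBN.Entries Cfsg.Agent.Lib.ChevBN.Table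
open Cfsg.Agent.Lib.ChevBN.Collect Cfsg.Agent.Lib.ChevBN.Rel Cfsg.Agent.Lib.ChevBN.Torus
open Cfsg.Agent.Lib.ChevBN.Monomial Cfsg.Agent.Lib.ChevBN.Core Cfsg.Agent.Lib.ChevBN.Pair
open Cfsg.Agent.Lib.ChevBN.Stmts
open Cfsg.Agent.Lib.ChevTri.Level Cfsg.Agent.Lib.ChevTri.Datum
open Cfsg.Agent.Lib.BNPair.Basic Cfsg.Agent.Lib.BNPair.Parabolic
open Cfsg.Agent.Lib.ChevOrder.BNCount Cfsg.Agent.Lib.ChevOrder.Chev
open Cfsg.Agent.Lib.StChar.Top Cfsg.Agent.Lib.StChar.Chev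
open Cfsg.Agent.Lib.StChar.HeckeA Cfsg.Agent.Lib.StChar.HeckeB Cfsg.Agent.Lib.StChar.HeckeC
open Cfsg.Agent.Lib.ChevBN.Levi

/-- `U` as a subgroup of the Chevalley group. -/
noncomputable abbrev UG (D : ChevalleyDatum) (F : Type*) [Field F] : Subgroup ↥(D.group F) :=
  (D.posUnipotent F).subgroupOf (D.group F)

/-- `H` as a subgroup of the Chevalley group. -/
noncomputable abbrev HG (D : ChevalleyDatum) (F : Type*) [Field F] : Subgroup ↥(D.group F) :=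
  (D.diagonalSubgroup F).subgroupOf (D.group F)

variable {D : ChevalleyDatum} {F : Type*} [Field F] {η : ℕ → ℕ → ℤ}
  (hR : Sys D F η) (hT : Tbl D)

include hR hT

theorem UG_le_B : UG D F ≤ (pair hR hT).B := fun _ hx =>
  (mem_PB hR hT).2 (U_le_B hR hT (Subgroup.mem_subgroupOf.1 hx))

theorem HG_le_B : HG D F ≤ (pair hR hT).B := fun _ hx =>
  (mem_PB hR hT).2 (H_le_B hR hT (Subgroup.mem_subgroupOf.1 hx))

theorem HG_le_N : HG D F ≤ (pair hR hT).N := fun _ hx =>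
  (mem_PN hR hT).2 (H_le_N hR (Subgroup.mem_subgroupOf.1 hx))

theorem B_decomp {b : ↥(D.group F)} (hb : b ∈ (pair hR hT).B) :
    ∃ u ∈ UG D F, ∃ h ∈ HG D F, b = u * h := by
  obtain ⟨u, hu, h, hh, e⟩ := (mem_B_iff hR hT).1 ((mem_PB hR hT).1 hb)
  refine ⟨⟨u, U_le_G hR hT hu⟩, Subgroup.mem_subgroupOf.2 hu, ⟨h, H_le_G hR hT hh⟩,
    Subgroup.mem_subgroupOf.2 hh, Subtype.ext e⟩

theorem norm_UG {h u : ↥(D.group F)} (hh : h ∈ HG D F) (hu : u ∈ UG D F) : h * u * h⁻¹ ∈ UG D F :=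
  Subgroup.mem_subgroupOf.2 (H_norm_U hR hT (Subgroup.mem_subgroupOf.1 hh) (Subgroup.mem_subgroupOf.1 hu))

theorem N_norm_HG {n h : ↥(D.group F)} (hn : n ∈ (pair hR hT).N) (hh : h ∈ HG D F) :
    n * h * n⁻¹ ∈ HG D F :=
  Subgroup.mem_subgroupOf.2 (H_norm_N hR hT ((mem_PN hR hT).1 hn) (Subgroup.mem_subgroupOf.1 hh))

theorem UG_inf_HG {x : ↥(D.group F)} (hu : x ∈ UG D F) (hh : x ∈ HG D F) : x = 1 := by
  have h1 : (x : GL D.Idx F) ∈ D.posUnipotent F ⊓ D.diagonalSubgroup F :=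
    ⟨Subgroup.mem_subgroupOf.1 hu, Subgroup.mem_subgroupOf.1 hh⟩
  rw [U_inf_H hR hT, Subgroup.mem_bot] at h1
  exact Subtype.ext h1

theorem mem_HG_of {x : ↥(D.group F)} (hb : x ∈ (pair hR hT).B) (hn : x ∈ (pair hR hT).N) : x ∈ HG D F := by
  refine Subgroup.mem_subgroupOf.2 ?_
  rw [← B_inf_N hR hT]
  exact ⟨(mem_PB hR hT).1 hb, (mem_PN hR hT).1 hn⟩

theorem exists_pow_eq {w h : ↥(D.group F)} (hw : w ∈ UG D F) (hh : h ∈ HG D F) (m : ℕ) :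
    ∃ w' ∈ UG D F, (w * h) ^ m = w' * h ^ m := by
  induction m with
  | zero => exact ⟨1, Subgroup.one_mem _, by simp⟩
  | succ m ih =>
    obtain ⟨w', hw', e⟩ := ih
    have h2 := norm_UG hR hT (Subgroup.pow_mem _ hh m) hw
    refine ⟨w' * (h ^ m * w * (h ^ m)⁻¹), Subgroup.mul_mem _ hw' h2, ?_⟩
    rw [pow_succ, e, pow_succ]
    group

section Char

variable [Fintype F] (p : ℕ) [Fact p.Prime] [CharP F p]

include p

theorem not_dvd_card_H : ¬ p ∣ Nat.card (HG D F) := by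
  have hp : p.Prime := Fact.out
  obtain ⟨k, hk0, hq⟩ : ∃ k : ℕ, 0 < k ∧ Nat.card F = p ^ k := by
    obtain ⟨n, hn, h⟩ := FiniteField.card F p
    exact ⟨n, n.pos, by rw [Nat.card_eq_fintype_card, h]⟩
  have hpq : p ∣ Nat.card F := by rw [hq]; exact dvd_pow_self _ hk0.ne'
  intro hd
  rw [Nat.card_congr (Subgroup.subgroupOfEquivOfLe (H_le_G hR hT)).toEquiv] at hd
  have h2 := Cfsg.Agent.Lib.ChevOrder.TorusCard.card_H_mul hT hR
  have h3 : p ∣ (Nat.card F - 1) ^ D.rank := by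
    rw [← h2]
    exact Dvd.dvd.mul_left hd _
  have h4 := hp.dvd_of_dvd_pow h3
  have hq1 : 1 ≤ Nat.card F := Nat.card_pos
  have h5 : p ∣ 1 := (Nat.dvd_sub_iff_right hq1 hpq).1 h4
  exact hp.one_lt.ne' (Nat.dvd_one.1 h5)

theorem isPGroup_U : IsPGroup p (UG D F) := by
  obtain ⟨S, hS⟩ := Cfsg.Agent.Lib.ChevOrder.SylowU.exists_sylow hR hT p
  rw [UG, ← hS]
  exact S.isPGroup'

/-- The key fact: `n⁻¹ v n = w h` forces `h = 1`. -/
theorem star {n v w h : ↥(D.group F)} (hv : v ∈ UG D F) (hw : w ∈ UG D F)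
    (hh : h ∈ HG D F) (he : n⁻¹ * v * n = w * h) : h = 1 := by
  have hp : p.Prime := Fact.out
  obtain ⟨k, hk⟩ := IsPGroup.iff_orderOf.1 (isPGroup_U hR hT p) ⟨v, hv⟩
  have hvk : v ^ p ^ k = 1 := by
    rw [← hk, Subgroup.orderOf_mk]
    exact pow_orderOf_eq_one v
  have h1 : (w * h) ^ p ^ k = 1 := by
    have e : n⁻¹ * v * n = n⁻¹ * v * (n⁻¹)⁻¹ := by simp
    rw [← he, e, conj_pow, hvk]
    group
  obtain ⟨w', hw', e⟩ := exists_pow_eq hR hT hw hh (p ^ k)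
  rw [e] at h1
  have h2 : h ^ p ^ k = w'⁻¹ := eq_inv_of_mul_eq_one_right h1
  have h3 : h ^ p ^ k = 1 :=
    UG_inf_HG hR hT (h2 ▸ Subgroup.inv_mem _ hw') (Subgroup.pow_mem _ hh _)
  have h4 : orderOf h ∣ p ^ k := orderOf_dvd_of_pow_eq_one h3
  have h5 : orderOf h ∣ Nat.card (HG D F) := by
    have := orderOf_dvd_natCard (⟨h, hh⟩ : HG D F)
    rwa [Subgroup.orderOf_mk] at this
  have hc : Nat.Coprime (p ^ k) (Nat.card (HG D F)) :=
    Nat.Coprime.pow_left _ ((Nat.Prime.coprime_iff_not_dvd hp).2 (not_dvd_card_H hR hT p))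
  have h6 := Nat.eq_one_of_dvd_coprimes hc h4 h5
  exact orderOf_eq_one_iff.1 h6

variable [Fintype ↥(D.group F)]

theorem dc_unique {a b g : ↥(D.group F)} (ha : a ∈ (pair hR hT).N) (hb : b ∈ (pair hR hT).N)
    (h1 : g ∈ dc (UG D F) a) (h2 : g ∈ dc (UG D F) b) : a = b := by
  obtain ⟨u₁, hu₁, u₂, hu₂, e₁⟩ := mem_dc.1 h1
  obtain ⟨u₃, hu₃, u₄, hu₄, e₂⟩ := mem_dc.1 h2
  have hC₁ : g ∈ C (pair hR hT) a := mem_C.2 ⟨u₁, UG_le_B hR hT hu₁, u₂, UG_le_B hR hT hu₂, e₁⟩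
  have hC₂ : g ∈ C (pair hR hT) b := mem_C.2 ⟨u₃, UG_le_B hR hT hu₃, u₄, UG_le_B hR hT hu₄, e₂⟩
  have h3 := (C_eq_iff ha hb).1 (C_eq_of_mem_both hC₁ hC₂)
  have h4 : a⁻¹ * b ∈ HG D F :=
    mem_HG_of hR hT h3 ((pair hR hT).N.mul_mem ((pair hR hT).N.inv_mem ha) hb)
  set h := a⁻¹ * b with hh
  have hbe : b = a * h := by rw [hh]; group
  have h5 : a⁻¹ * (u₃⁻¹ * u₁) * a = (h * (u₄ * u₂⁻¹) * h⁻¹) * h := by
    have e3 : u₁ * a * u₂ = u₃ * (a * h) * u₄ := by rw [← e₁, e₂, hbe]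
    have e4 : u₁ = u₃ * (a * h) * u₄ * u₂⁻¹ * a⁻¹ := by
      rw [← e3]
      group
    rw [e4]
    group
  have h6 := star hR hT p (Subgroup.mul_mem _ (Subgroup.inv_mem _ hu₃) hu₁)
    (norm_UG hR hT h4 (Subgroup.mul_mem _ hu₄ (Subgroup.inv_mem _ hu₂))) h4 h5
  rw [hbe, h6, mul_one]

/-- The partition of the group into double cosets of `U`. -/
theorem isPartition : IsPartition (UG D F) (pair hR hT).N := by
  intro g
  obtain ⟨n, hn, hm⟩ := bruhat_exists (P := pair hR hT) g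
  obtain ⟨b₁, hb₁, b₂, hb₂, e⟩ := mem_C.1 hm
  obtain ⟨u₁, hu₁, h₁, hh₁, rfl⟩ := B_decomp hR hT hb₁
  obtain ⟨u₂, hu₂, h₂, hh₂, rfl⟩ := B_decomp hR hT hb₂
  have hn' : h₁ * n * h₂ ∈ (pair hR hT).N :=
    (pair hR hT).N.mul_mem ((pair hR hT).N.mul_mem (HG_le_N hR hT hh₁) hn) (HG_le_N hR hT hh₂)
  have hu₂' := norm_UG hR hT (Subgroup.inv_mem _ hh₂) hu₂
  rw [inv_inv] at hu₂'
  have hmem : g ∈ dc (UG D F) (h₁ * n * h₂) := by
    refine mem_dc.2 ⟨u₁, hu₁, h₂⁻¹ * u₂ * h₂, hu₂', ?_⟩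
    rw [e]
    group
  refine ⟨⟨_, hn'⟩, hmem, ?_⟩
  rintro ⟨a, ha⟩ hg
  exact Subtype.ext (dc_unique hR hT p ha hn' hg hmem)

/-- `|U n U| |H| = |B n B|`. -/
theorem card_dc_mul {n : ↥(D.group F)} (hn : n ∈ (pair hR hT).N) :
    (dc (UG D F) n).card * Nat.card (HG D F) = Nat.card (C (pair hR hT) n) := by
  have hdc : ∀ x ∈ dc (UG D F) n, ∀ h ∈ HG D F, x * h ∈ C (pair hR hT) n := by
    intro x hx h hh
    obtain ⟨u₁, hu₁, u₂, hu₂, rfl⟩ := mem_dc.1 hx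
    exact C_mul_right (C_mul_right (C_mul_left (self_mem_C _) (UG_le_B hR hT hu₁)) (UG_le_B hR hT hu₂))
      (HG_le_B hR hT hh)
  let Φ : ↥(dc (UG D F) n) × HG D F → C (pair hR hT) n := fun q =>
    ⟨(q.1 : ↥(D.group F)) * q.2, hdc _ q.1.2 _ q.2.2⟩
  have hΦ : Function.Bijective Φ := by
    constructor
    · rintro ⟨⟨x, hx⟩, ⟨h, hh⟩⟩ ⟨⟨x', hx'⟩, ⟨h', hh'⟩⟩ he
      have e : x * h = x' * h' := congrArg Subtype.val he
      obtain ⟨u₁, hu₁, u₂, hu₂, rfl⟩ := mem_dc.1 hx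
      obtain ⟨u₃, hu₃, u₄, hu₄, rfl⟩ := mem_dc.1 hx'
      have h4 : h' * h⁻¹ ∈ HG D F := Subgroup.mul_mem _ hh' (Subgroup.inv_mem _ hh)
      set k := h' * h⁻¹ with hk
      have h5 : n⁻¹ * (u₃⁻¹ * u₁) * n = (u₄ * (k * u₂⁻¹ * k⁻¹)) * k := by
        have e1 : u₁ = u₃ * n * u₄ * k * u₂⁻¹ * n⁻¹ := by
          have e2 : h' = k * h := by rw [hk]; group
          rw [e2] at e
          have e3 : u₁ * n * u₂ = u₃ * n * u₄ * k := by
            have := mul_right_cancel (a := u₁ * n * u₂) (b := h) (c := u₃ * n * u₄ * k) (by rw [e]; group)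
            exact this
          calc u₁ = (u₁ * n * u₂) * u₂⁻¹ * n⁻¹ := by group
            _ = _ := by rw [e3]
        rw [e1]
        group
      have h6 := star hR hT p (Subgroup.mul_mem _ (Subgroup.inv_mem _ hu₃) hu₁)
        (Subgroup.mul_mem _ hu₄ (norm_UG hR hT h4 (Subgroup.inv_mem _ hu₂))) h4 h5
      have h7 : h' = h := by
        have := eq_of_mul_inv_eq_one (hk ▸ h6)
        exact this
      subst h7
      have h8 := mul_right_cancel e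
      simp only [Prod.mk.injEq, Subtype.mk.injEq, and_true]
      exact h8
    · rintro ⟨g, hg⟩
      obtain ⟨b₁, hb₁, b₂, hb₂, e⟩ := mem_C.1 hg
      obtain ⟨u₁, hu₁, h₁, hh₁, rfl⟩ := B_decomp hR hT hb₁
      obtain ⟨u₂, hu₂, h₂, hh₂, rfl⟩ := B_decomp hR hT hb₂
      have h3 : n⁻¹ * h₁ * n * (u₂ * h₂) = ((n⁻¹ * h₁ * n) * u₂ * (n⁻¹ * h₁ * n)⁻¹) * ((n⁻¹ * h₁ * n) * h₂) := by
        group
      have hk1 : n⁻¹ * h₁ * n ∈ HG D F := by
        have := N_norm_HG hR hT ((pair hR hT).N.inv_mem hn) hh₁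
        simpa using this
      have hy := norm_UG hR hT hk1 hu₂
      refine ⟨(⟨u₁ * n * ((n⁻¹ * h₁ * n) * u₂ * (n⁻¹ * h₁ * n)⁻¹), mem_dc.2 ⟨u₁, hu₁, _, hy, rfl⟩⟩,
        ⟨(n⁻¹ * h₁ * n) * h₂, Subgroup.mul_mem _ hk1 hh₂⟩), Subtype.ext ?_⟩
      show u₁ * n * ((n⁻¹ * h₁ * n) * u₂ * (n⁻¹ * h₁ * n)⁻¹) * ((n⁻¹ * h₁ * n) * h₂) = g
      rw [e]
      group
  rw [← Nat.card_congr (Equiv.ofBijective Φ hΦ), Nat.card_prod]
  congr 1
  rw [Nat.card_eq_fintype_card, Fintype.card_coe]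

/-- `|U n U| = q^ℓ(n) |U|`. -/
theorem card_dc {n : ↥(D.group F)} (hn : n ∈ (pair hR hT).N) :
    (dc (UG D F) n).card = Nat.card F ^ len (pair hR hT) n * Nat.card (D.posUnipotent F) := by
  have h1 := card_dc_mul hR hT p hn
  have h2 := card_C (fun s hs => card_C_S hR hT hs) _ n hn rfl
  rw [← h1, card_PB hR hT, card_B hR hT,
    Nat.card_congr (Subgroup.subgroupOfEquivOfLe (H_le_G hR hT)).toEquiv, ← mul_assoc] at h2
  exact Nat.eq_of_mul_eq_mul_right Nat.card_pos h2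

/-- `q^ℓ(n) ≤ q^N`. -/
theorem len_le_N (hq : 2 ≤ Nat.card F) {n : ↥(D.group F)} (hn : n ∈ (pair hR hT).N) :
    len (pair hR hT) n ≤ D.nroots / 2 := by
  have h1 := card_dc hR hT p hn
  have h2 : (dc (UG D F) n).card ≤ Nat.card (D.posUnipotent F) * Nat.card (D.posUnipotent F) := by
    rw [← Nat.card_congr (Subgroup.subgroupOfEquivOfLe (U_le_G hR hT)).toEquiv, ← Nat.card_prod,
      ← Fintype.card_coe, ← Nat.card_eq_fintype_card]
    let Φ : UG D F × UG D F → ↥(dc (UG D F) n) := fun q =>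
      ⟨(q.1 : ↥(D.group F)) * n * q.2, mem_dc.2 ⟨q.1, q.1.2, q.2, q.2.2, rfl⟩⟩
    refine Nat.card_le_card_of_surjective Φ ?_
    rintro ⟨x, hx⟩
    obtain ⟨u, hu, u', hu', rfl⟩ := mem_dc.1 hx
    exact ⟨(⟨u, hu⟩, ⟨u', hu'⟩), rfl⟩
  rw [h1] at h2
  have h3 : Nat.card F ^ len (pair hR hT) n ≤ Nat.card (D.posUnipotent F) :=
    Nat.le_of_mul_le_mul_right h2 Nat.card_pos
  rw [Cfsg.Agent.Lib.ChevBN.Stmts.card_U hR hT, ← Nat.card_eq_fintype_card] at h3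
  exact (Nat.pow_le_pow_iff_right (by omega)).1 h3

/-- The length of the top element. -/
theorem len_top (hT2 : Tbl2 D) (hq : 2 ≤ Nat.card F) (n : ↥(pair hR hT).N)
    (hw : ∀ i, LL (pair hR hT) (fW hR hT i * QuotientGroup.mk n) < LL (pair hR hT) (QuotientGroup.mk n))
    (hnP : ((n : ↥(D.group F)) : GL D.Idx F) ∈ D.parabolicSubgroup F (Fin.val '' (Set.univ : Set (Fin D.rank)))) :
    len (pair hR hT) (n : ↥(D.group F)) = D.nroots / 2 := by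
  have hinj : ∀ x ∈ UG D F, (n : ↥(D.group F))⁻¹ * x * (n : ↥(D.group F)) ∈ UG D F → x = 1 := by
    intro x hx hx'
    have h1 := (conj_mem_B_iff hR hT hT2 Set.univ n hnP (fun i _ => hw i)
      (Subgroup.mem_subgroupOf.1 hx)).1 (U_le_B hR hT (Subgroup.mem_subgroupOf.1 hx'))
    rw [radical_univ hT hR, Subgroup.mem_bot] at h1
    exact Subtype.ext h1
  have h1 := card_dc hR hT p n.2
  have h2 : (dc (UG D F) (n : ↥(D.group F))).card =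
      Nat.card (D.posUnipotent F) * Nat.card (D.posUnipotent F) := by
    rw [← Nat.card_congr (Subgroup.subgroupOfEquivOfLe (U_le_G hR hT)).toEquiv, ← Nat.card_prod,
      ← Fintype.card_coe, ← Nat.card_eq_fintype_card]
    let Φ : UG D F × UG D F → ↥(dc (UG D F) (n : ↥(D.group F))) := fun q =>
      ⟨(q.1 : ↥(D.group F)) * (n : ↥(D.group F)) * q.2, mem_dc.2 ⟨q.1, q.1.2, q.2, q.2.2, rfl⟩⟩
    refine (Nat.card_congr (Equiv.ofBijective Φ ⟨?_, ?_⟩)).symm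
    · rintro ⟨⟨u₁, hu₁⟩, ⟨u₂, hu₂⟩⟩ ⟨⟨u₃, hu₃⟩, ⟨u₄, hu₄⟩⟩ he
      have e : u₁ * (n : ↥(D.group F)) * u₂ = u₃ * (n : ↥(D.group F)) * u₄ := congrArg Subtype.val he
      have h3 : (n : ↥(D.group F))⁻¹ * (u₃⁻¹ * u₁) * (n : ↥(D.group F)) = u₄ * u₂⁻¹ := by
        have e1 : u₁ = u₃ * (n : ↥(D.group F)) * u₄ * u₂⁻¹ * (n : ↥(D.group F))⁻¹ := by
          rw [← e]
          group
        rw [e1]
        group
      have h4 := hinj _ (Subgroup.mul_mem _ (Subgroup.inv_mem _ hu₃) hu₁)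
        (h3 ▸ Subgroup.mul_mem _ hu₄ (Subgroup.inv_mem _ hu₂))
      have h5 : u₁ = u₃ := (inv_mul_eq_one.1 h4).symm
      subst h5
      have h6 : u₂ = u₄ := mul_left_cancel e
      subst h6
      rfl
    · rintro ⟨x, hx⟩
      obtain ⟨u, hu, u', hu', rfl⟩ := mem_dc.1 hx
      exact ⟨(⟨u, hu⟩, ⟨u', hu'⟩), rfl⟩
  rw [h1] at h2
  have h3 := Nat.eq_of_mul_eq_mul_right Nat.card_pos h2
  rw [Cfsg.Agent.Lib.ChevBN.Stmts.card_U hR hT, ← Nat.card_eq_fintype_card] at h3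
  exact Nat.pow_right_injective hq h3

end Char

end Cfsg.Agent.Lib.StChar.Inst
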