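import Cfsg.Agent.Lib.StChar.Inst
import Cfsg.Agent.Lib.StChar.Eta
import Cfsg.Agent.Lib.ChevBN.ConjH

/-!
# The Hecke data of a Chevalley group

The structures `Simple` and `Data` of the Hecke argument for a Chevalley group given by the relations.
-/

set_option autoImplicit false
set_option linter.unusedSectionVars false

namespace Cfsg.Agent.Lib.StChar.Inst2

open Cfsg Cfsg.Lie Cfsg.Agent.Lib.ChevBN.Elem Cfsg.Agent.Lib.ChevBN.Entries Cfsg.Agent.Lib.ChevBN.Table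
open Cfsg.Agent.Lib.ChevBN.Collect Cfsg.Agent.Lib.ChevBN.Rel Cfsg.Agent.Lib.ChevBN.Torus
open Cfsg.Agent.Lib.ChevBN.Monomial Cfsg.Agent.Lib.ChevBN.Core Cfsg.Agent.Lib.ChevBN.Pair
open Cfsg.Agent.Lib.ChevBN.Stmts
open Cfsg.Agent.Lib.ChevTri.Level Cfsg.Agent.Lib.ChevTri.Datum
open Cfsg.Agent.Lib.BNPair.Basic Cfsg.Agent.Lib.BNPair.Parabolic
open Cfsg.Agent.Lib.ChevOrder.BNCount Cfsg.Agent.Lib.ChevOrder.Chev
open Cfsg.Agent.Lib.StChar.Top Cfsg.Agent.Lib.StChar.Chev Cfsg.Agent.Lib.StChar.Inst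
open Cfsg.Agent.Lib.StChar.HeckeA Cfsg.Agent.Lib.StChar.HeckeB Cfsg.Agent.Lib.StChar.HeckeC
open Cfsg.Agent.Lib.ChevBN.Levi Cfsg.Agent.Lib.StChar.Eta

variable {D : ChevalleyDatum} {F : Type*} [Field F] {η : ℕ → ℕ → ℤ}
  (hR : Sys D F η) (hT : Tbl D)

/-- The root element `x_{p_i}(s)` in the Chevalley group. -/
noncomputable def xG (hR : Sys D F η) (hT : Tbl D) (i : Fin D.rank) (s : F) : ↥(D.group F) :=
  ⟨X hR.toAddRel (D.simple i) s, X_mem_G hR hT (hT.simple_lt i.2) s⟩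

@[simp] theorem coe_xG (i : Fin D.rank) (s : F) :
    ((xG hR hT i s : ↥(D.group F)) : GL D.Idx F) = X hR.toAddRel (D.simple i) s := rfl

theorem hG_mul_simple {i : ℕ} (hi : i < D.rank) {c d : F} (hc : c ≠ 0) (hd : d ≠ 0) :
    hG hR.toAddRel (D.simple i) (c * d) =
      hG hR.toAddRel (D.simple i) c * hG hR.toAddRel (D.simple i) d := by
  apply Units.ext
  rw [Units.val_mul, coe_hG_simple hR hi (mul_ne_zero hc hd), coe_hG_simple hR hi hc,
    coe_hG_simple hR hi hd, dgMat_mul]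
  congr 1
  funext s
  simp only [Pi.mul_apply]
  rw [mul_zpow]

theorem hG_one_simple {i : ℕ} : hG hR.toAddRel (D.simple i) (1 : F) = 1 := by
  rw [hG, nG_neg_one]
  group

/-- The cocharacter `h_{p_i}`. -/
noncomputable def hmG (hR : Sys D F η) (hT : Tbl D) (i : Fin D.rank) : Fˣ →* ↥(D.group F) where
  toFun d := ⟨hG hR.toAddRel (D.simple i) (d : F), hG_mem_group hR hT (hT.simple_lt i.2) _⟩
  map_one' := Subtype.ext (by simpa using hG_one_simple (i := i) hR)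
  map_mul' c d := Subtype.ext (by
    simpa using hG_mul_simple hR i.2 c.ne_zero d.ne_zero)

@[simp] theorem coe_hmG (i : Fin D.rank) (d : Fˣ) :
    ((hmG hR hT i d : ↥(D.group F)) : GL D.Idx F) = hG hR.toAddRel (D.simple i) (d : F) := rfl

include hR hT

theorem hmG_mem (i : Fin D.rank) (d : Fˣ) : hmG hR hT i d ∈ HG D F :=
  Subgroup.mem_subgroupOf.2 (hG_mem_diagonal hR (hT.simple_lt i.2) d.ne_zero)

/-- `H` normalises `U_p`. -/
theorem H_norm_Yp {p : ℕ} {h a : GL D.Idx F} (hh : h ∈ D.diagonalSubgroup F) (ha : a ∈ Yp hR p) :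
    h * a * h⁻¹ ∈ Yp hR p := by
  obtain ⟨κ, hκ, -, h1⟩ := exists_of_mem_H hR hT hh
  refine gen_induction hR.toAddRel (P := fun a => h * a * h⁻¹ ∈ Yp hR p) (by simp) ?_ ?_ ha
  · intro s hs t
    rw [h1 s hs.1.1 t]
    exact X_mem_gen _ hs _
  · intro a b ha hb
    have e : h * (a * b) * h⁻¹ = (h * a * h⁻¹) * (h * b * h⁻¹) := by group
    rw [e]
    exact Subgroup.mul_mem _ ha hb

/-- The cell of `h n_p`. -/
theorem isCell_of (i : Fin D.rank) {h : ↥(D.group F)} (hh : h ∈ HG D F) :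
    IsCell (UG D F) (xG hR hT i) (h * ee hR hT i) := by
  have hh' : (h : GL D.Idx F) ∈ D.diagonalSubgroup F := Subgroup.mem_subgroupOf.1 hh
  have hhinv : (h : GL D.Idx F)⁻¹ ∈ D.diagonalSubgroup F := Subgroup.inv_mem _ hh'
  have hpos := hT.simple_pos i i.2
  have hp := hT.simple_lt i.2
  refine ⟨fun s => Subgroup.mem_subgroupOf.2 (X_mem_U hR hT hpos s), ?_, ?_⟩
  · intro u hu
    obtain ⟨a, ha, τ, he⟩ := U_decomp hR hT i.2 (Subgroup.mem_subgroupOf.1 hu)
    refine ⟨τ, Subgroup.mem_subgroupOf.2 ?_⟩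
    have h1 := X_norm_Yp hR hT i.2 τ ha
    have h2 := H_norm_Yp hR hT hhinv h1
    rw [inv_inv] at h2
    have h3 := A_inv_norm_Yp hR hT i.2 h2
    have e : (((h * ee hR hT i)⁻¹ * ((xG hR hT i τ)⁻¹ * u) * (h * ee hR hT i) : ↥(D.group F)) : GL D.Idx F) =
        (A hR i)⁻¹ * ((h : GL D.Idx F)⁻¹ * ((X hR.toAddRel (D.simple i) τ)⁻¹ * a * X hR.toAddRel (D.simple i) τ) *
          (h : GL D.Idx F)) * A hR i := by
      simp only [Subgroup.coe_mul, Subgroup.coe_inv, coe_ee, coe_xG, he]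
      group
    rw [e]
    exact Yp_le_U hR hT _ h3
  · intro s s' hm
    have hm' := Subgroup.mem_subgroupOf.1 hm
    obtain ⟨κ, hκ, -, h1⟩ := exists_of_mem_H hR hT hhinv
    have e : (((h * ee hR hT i)⁻¹ * ((xG hR hT i s)⁻¹ * xG hR hT i s') * (h * ee hR hT i) : ↥(D.group F)) : GL D.Idx F) =
        (A hR i)⁻¹ * ((h : GL D.Idx F)⁻¹ * X hR.toAddRel (D.simple i) (-s + s') * ((h : GL D.Idx F)⁻¹)⁻¹) * A hR i := by
      simp only [Subgroup.coe_mul, Subgroup.coe_inv, coe_ee, coe_xG, ← X_mul, ← X_inv, inv_inv]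
      group
    rw [e, h1 _ hp, A_inv_conj_X hR hT i.2 hp, hT.w_simple i i.2] at hm'
    have h5 : (η i (D.neg (D.simple i)) : F) ≠ 0 := eta_ne hR i.2 (hT.neg_lt hp)
    by_contra hne
    have h6 : -s + s' ≠ 0 := by
      intro h7
      apply hne
      have : s' = s + (-s + s') := by ring
      rw [this, h7, add_zero]
    exact X_neg_not_mem_B hR hT hpos (mul_ne_zero h5 (mul_ne_zero (hκ _) h6)) (U_le_B hR hT hm')

/-- `n_p⁻² ∈ H`. -/
theorem ee_inv_sq_mem (i : Fin D.rank) : (ee hR hT i)⁻¹ * (ee hR hT i)⁻¹ ∈ HG D F := by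
  have h1 := (pair hR hT).sq_mem _ (ee_mem hR hT i)
  have h2 := (pair hR hT).B.inv_mem h1
  refine mem_HG_of hR hT ?_ ?_
  · convert h2 using 1
    group
  · have h3 := (pair hR hT).subset (ee_mem hR hT i)
    exact (pair hR hT).N.mul_mem ((pair hR hT).N.inv_mem h3) ((pair hR hT).N.inv_mem h3)

/-- The relation from the `SL₂`. -/
theorem conj_xG (i : Fin D.rank) (d : Fˣ) :
    ee hR hT i * xG hR hT i ((d : F)⁻¹) * (ee hR hT i)⁻¹ =
      xG hR hT i (-(d : F)) * (hmG hR hT i d * ee hR hT i) * xG hR hT i (-(d : F)) := by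
  apply Subtype.ext
  simp only [Subgroup.coe_mul, Subgroup.coe_inv, coe_ee, coe_xG, coe_hmG]
  have hp := hT.simple_lt i.2
  rw [A_conj_X hR i.2 hp, hT.w_simple i i.2, eta_simple hR hT i.2]
  have h1 := X_neg_eq hR.toAddRel (D.simple i) (d : F)
  rw [nG_eq_hG_mul] at h1
  have e : (-1 : F) * (d : F)⁻¹ = -(d : F)⁻¹ := by ring
  rw [e, h1]
  rfl

/-- The top element sends `-p_i` to a positive root. -/
theorem conj_neg_mem (n : ↥(pair hR hT).N)
    (hw : ∀ i, LL (pair hR hT) (fW hR hT i * QuotientGroup.mk n) < LL (pair hR hT) (QuotientGroup.mk n))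
    (i : Fin D.rank) (c : F) :
    ((n : ↥(D.group F)) : GL D.Idx F)⁻¹ * X hR.toAddRel (D.neg (D.simple i)) c *
      ((n : ↥(D.group F)) : GL D.Idx F) ∈ D.posUnipotent F := by
  have hp := hT.simple_lt i.2
  have hpos := hT.simple_pos i i.2
  obtain ⟨κ, -, h⟩ := conj_inv_X hR hT n (negF hT ⟨D.simple i, hp⟩)
  have h1 := h c
  have h2 : X hR.toAddRel ((negF hT ⟨D.simple i, hp⟩ : Fin D.nroots) : ℕ) c =
      X hR.toAddRel (D.neg (D.simple i)) c := rfl
  rw [h2] at h1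
  rw [h1, Cfsg.Agent.Lib.ChevBN.ConjH.σW_inv_neg hR hT]
  have h3 := neg_image hR hT Set.univ _ (fun j _ => hw j) ⟨D.simple i, hp⟩ hpos ⟨hp, fun j hj hj2 => absurd ⟨⟨j, hj⟩, Set.mem_univ _, rfl⟩ hj2⟩
  exact X_mem_U hR hT (hT.pos_of_neg h3) _

section Main

variable [Fintype F] (p : ℕ) [Fact p.Prime] [CharP F p] [Fintype ↥(D.group F)]

include p

/-- `U n_p U · U n_p⁻¹ n₀ U ⊆ U n₀ U`. -/
theorem sub_one (n : ↥(pair hR hT).N)
    (hw : ∀ i, LL (pair hR hT) (fW hR hT i * QuotientGroup.mk n) < LL (pair hR hT) (QuotientGroup.mk n))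
    (i : Fin D.rank) {x' y' : ↥(D.group F)} (hx : x' ∈ dc (UG D F) (ee hR hT i))
    (hy : y' ∈ dc (UG D F) ((ee hR hT i)⁻¹ * (n : ↥(D.group F)))) :
    x' * y' ∈ dc (UG D F) (n : ↥(D.group F)) := by
  obtain ⟨u₁, hu₁, u₂, hu₂, rfl⟩ := mem_dc.1 hx
  obtain ⟨u₃, hu₃, u₄, hu₄, rfl⟩ := mem_dc.1 hy
  have hu : ((u₂ * u₃ : ↥(D.group F)) : GL D.Idx F) ∈ D.posUnipotent F :=
    Subgroup.mem_subgroupOf.1 (Subgroup.mul_mem _ hu₂ hu₃)
  obtain ⟨a, ha, τ, he⟩ := U_decomp hR hT i.2 hu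
  have ha' := A_norm_Yp hR hT i.2 ha
  have hp := hT.simple_lt i.2
  set c : F := (η i (D.simple i) : F) * τ with hc
  have hv := conj_neg_mem hR hT n hw i c
  set N₀ : GL D.Idx F := ((n : ↥(D.group F)) : GL D.Idx F) with hN₀
  have hNG : N₀ * (N₀⁻¹ * X hR.toAddRel (D.neg (D.simple i)) c * N₀) * N₀⁻¹ = X hR.toAddRel (D.neg (D.simple i)) c := by
    group
  let a₂ : ↥(D.group F) := ⟨A hR i * a * (A hR i)⁻¹, U_le_G hR hT (Yp_le_U hR hT _ ha')⟩
  let v₂ : ↥(D.group F) := ⟨N₀⁻¹ * X hR.toAddRel (D.neg (D.simple i)) c * N₀, U_le_G hR hT hv⟩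
  refine mem_dc.2 ⟨u₁ * a₂, Subgroup.mul_mem _ hu₁ (Subgroup.mem_subgroupOf.2 (Yp_le_U hR hT _ ha')),
    v₂ * u₄, Subgroup.mul_mem _ (Subgroup.mem_subgroupOf.2 hv) hu₄, ?_⟩
  apply Subtype.ext
  simp only [Subgroup.coe_mul, Subgroup.coe_inv, coe_ee]
  show (u₁ : GL D.Idx F) * A hR i * (u₂ : GL D.Idx F) * ((u₃ : GL D.Idx F) * ((A hR i)⁻¹ * N₀) * (u₄ : GL D.Idx F)) =
    (u₁ : GL D.Idx F) * (A hR i * a * (A hR i)⁻¹) * N₀ * ((N₀⁻¹ * X hR.toAddRel (D.neg (D.simple i)) c * N₀) * (u₄ : GL D.Idx F))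
  have e1 : (u₂ : GL D.Idx F) * (u₃ : GL D.Idx F) = a * X hR.toAddRel (D.simple i) τ := by
    rw [← he]
    rfl
  have e2 : A hR i * X hR.toAddRel (D.simple i) τ * (A hR i)⁻¹ = X hR.toAddRel (D.neg (D.simple i)) c := by
    rw [A_conj_X hR i.2 hp, hT.w_simple i i.2]
  calc (u₁ : GL D.Idx F) * A hR i * (u₂ : GL D.Idx F) * ((u₃ : GL D.Idx F) * ((A hR i)⁻¹ * N₀) * (u₄ : GL D.Idx F))
      = (u₁ : GL D.Idx F) * A hR i * ((u₂ : GL D.Idx F) * (u₃ : GL D.Idx F)) * (A hR i)⁻¹ * N₀ * (u₄ : GL D.Idx F) := by group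
    _ = (u₁ : GL D.Idx F) * (A hR i * a * (A hR i)⁻¹) * (A hR i * X hR.toAddRel (D.simple i) τ * (A hR i)⁻¹) * N₀ * (u₄ : GL D.Idx F) := by
        rw [e1]
        group
    _ = _ := by
        rw [e2]
        group

/-- The length of `n_p`. -/
theorem len_ee (i : Fin D.rank) : len (pair hR hT) (ee hR hT i) = 1 := by
  have h1 := len_mul_eq_or (ee_mem hR hT i) ((pair hR hT).N.one_mem)
  rw [mul_one, len_one] at h1
  omega

theorem len_inv_mul_top (n : ↥(pair hR hT).N)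
    (hw : ∀ i, LL (pair hR hT) (fW hR hT i * QuotientGroup.mk n) < LL (pair hR hT) (QuotientGroup.mk n))
    (i : Fin D.rank) :
    len (pair hR hT) ((ee hR hT i)⁻¹ * (n : ↥(D.group F))) + 1 = len (pair hR hT) (n : ↥(D.group F)) := by
  have hs := ee_mem hR hT i
  rw [len_inv_mul hs n.2]
  have h1 := len_mul_eq_or hs n.2
  have h2 := hw i
  have h3 : fW hR hT i * (QuotientGroup.mk n : WW (pair hR hT)) =
      QuotientGroup.mk (⟨ee hR hT i, (pair hR hT).subset (ee_mem hR hT i)⟩ * n) := rfl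
  rw [h3, LL_mk, LL_mk] at h2
  have h4 : ((⟨ee hR hT i, (pair hR hT).subset (ee_mem hR hT i)⟩ * n : ↥(pair hR hT).N) :
      ↥(D.group F)) = ee hR hT i * (n : ↥(D.group F)) := rfl
  rw [h4] at h2
  omega

/-- The counting condition. -/
theorem card_one (n : ↥(pair hR hT).N)
    (hw : ∀ i, LL (pair hR hT) (fW hR hT i * QuotientGroup.mk n) < LL (pair hR hT) (QuotientGroup.mk n))
    (i : Fin D.rank) :
    (dc (UG D F) (ee hR hT i)).card * (dc (UG D F) ((ee hR hT i)⁻¹ * (n : ↥(D.group F)))).card =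
      Nat.card (UG D F) * (dc (UG D F) (n : ↥(D.group F))).card := by
  have hs := (pair hR hT).subset (ee_mem hR hT i)
  rw [card_dc hR hT p hs, card_dc hR hT p ((pair hR hT).N.mul_mem ((pair hR hT).N.inv_mem hs) n.2),
    card_dc hR hT p n.2, len_ee hR hT p i, ← len_inv_mul_top hR hT p n hw i,
    Nat.card_congr (Subgroup.subgroupOfEquivOfLe (U_le_G hR hT)).toEquiv]
  ring

/-- The data of a simple reflection. -/
theorem simple_data (n : ↥(pair hR hT).N)
    (hw : ∀ i, LL (pair hR hT) (fW hR hT i * QuotientGroup.mk n) < LL (pair hR hT) (QuotientGroup.mk n))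
    (i : Fin D.rank) :
    Simple (UG D F) (HG D F) (n : ↥(D.group F)) (xG hR hT i) (ee hR hT i) (hmG hR hT i)
      ((ee hR hT i)⁻¹ * (ee hR hT i)⁻¹) where
  add s s' := Subtype.ext (X_mul hR.toAddRel _ _ _)
  cell := by simpa using isCell_of hR hT i (Subgroup.one_mem _)
  cell' := by
    have := isCell_of hR hT i (ee_inv_sq_mem hR hT i)
    simpa [mul_assoc] using this
  cellh d := isCell_of hR hT i (hmG_mem hR hT i d)
  conj d := ⟨_, _, conj_xG hR hT i d⟩
  hm_mem d := hmG_mem hR hT i d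
  k_mem := ee_inv_sq_mem hR hT i
  inv_eq := by group
  sub₁ _ hx _ hy := sub_one hR hT p n hw i hx hy
  card₁ := card_one hR hT p n hw i

/-- The data of the Hecke argument. -/
theorem data (hT2 : Tbl2 D) (n : ↥(pair hR hT).N)
    (hw : ∀ i, LL (pair hR hT) (fW hR hT i * QuotientGroup.mk n) < LL (pair hR hT) (QuotientGroup.mk n))
    (hnP : ((n : ↥(D.group F)) : GL D.Idx F) ∈ D.parabolicSubgroup F (Fin.val '' (Set.univ : Set (Fin D.rank)))) :
    Data (UG D F) (pair hR hT).N (HG D F) (n : ↥(D.group F)) (Fintype.card F)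
      (fun m => Fintype.card F ^ (D.nroots / 2 - len (pair hR hT) (m : ↥(D.group F)))) := by
  have hq : 2 ≤ Nat.card F := by
    rw [Nat.card_eq_fintype_card]
    exact Fintype.one_lt_card
  have htop := len_top hR hT p hT2 hq n hw hnP
  refine ⟨isPartition hR hT p, ?_, ?_, fun h hh u hu => norm_UG hR hT hh hu, ?_, n.2, HG_le_N hR hT, ?_, ?_⟩
  · intro m
    rw [card_dc hR hT p m.2]
    have h1 := len_le_N hR hT p hq m.2
    have h2 := Cfsg.Agent.Lib.ChevBN.Stmts.card_U hR hT (F := F)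
    rw [Nat.card_congr (Subgroup.subgroupOfEquivOfLe (U_le_G hR hT)).toEquiv, h2,
      Nat.card_eq_fintype_card]
    have h3 : Fintype.card F ^ len (pair hR hT) (m : ↥(D.group F)) *
        Fintype.card F ^ (D.nroots / 2 - len (pair hR hT) (m : ↥(D.group F))) =
        Fintype.card F ^ (D.nroots / 2) := by
      rw [← pow_add]
      congr 1
      omega
    calc _ = (Fintype.card F ^ len (pair hR hT) (m : ↥(D.group F)) *
          Fintype.card F ^ (D.nroots / 2 - len (pair hR hT) (m : ↥(D.group F)))) * Fintype.card F ^ (D.nroots / 2) := by ring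
      _ = _ := by rw [h3]; ring
  · rw [← Nat.card_eq_fintype_card]
    exact hq
  · intro h hh k hk
    exact Subtype.ext (Cfsg.Agent.Lib.ChevBN.Opp.H_comm hR hT (Subgroup.mem_subgroupOf.1 hh)
      (Subgroup.mem_subgroupOf.1 hk))
  · intro h hh m he
    have h1 : len (pair hR hT) (m : ↥(D.group F)) = D.nroots / 2 := by
      rw [he, ← htop]
      symm
      apply len_congr
      have e : (n : ↥(D.group F))⁻¹ * ((n : ↥(D.group F)) * h) = h := by group
      rw [e]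
      exact HG_le_B hR hT hh
    show Fintype.card F ^ (D.nroots / 2 - len (pair hR hT) (m : ↥(D.group F))) = 1
    rw [h1, Nat.sub_self, pow_zero]
  · intro m hm
    have hlt : len (pair hR hT) (m : ↥(D.group F)) < D.nroots / 2 := by
      by_contra hcon
      have h1 := len_le_N hR hT p hq m.2
      have h2 : len (pair hR hT) (m : ↥(D.group F)) = D.nroots / 2 := by omega
      have hs := setupW hR hT
      have hdesc : ∀ i, LL (pair hR hT) (fW hR hT i * QuotientGroup.mk m) < LL (pair hR hT) (QuotientGroup.mk m) := by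
        intro i
        have h3 := hs.ne i (QuotientGroup.mk m)
        have h4 : fW hR hT i * (QuotientGroup.mk m : WW (pair hR hT)) =
            QuotientGroup.mk (⟨ee hR hT i, (pair hR hT).subset (ee_mem hR hT i)⟩ * m) := rfl
        rw [h4, LL_mk, LL_mk] at h3 ⊢
        have h5 := len_le_N hR hT p hq ((⟨ee hR hT i, (pair hR hT).subset (ee_mem hR hT i)⟩ * m : ↥(pair hR hT).N)).2
        omega
      have hpar : ∀ w : WW (pair hR hT), w ∈ Cfsg.Agent.Lib.ChevOrder.Cox.par (fW hR hT) Set.univ := by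
        intro w
        obtain ⟨l, hl, -⟩ := hs.ex w
        rw [← hl]
        exact Cfsg.Agent.Lib.ChevOrder.Cox.pr_mem_par fun i _ => Set.mem_univ i
      have h6 := Cfsg.Agent.Lib.StChar.Cox.top_unique hs (hpar _) (hpar _)
        (fun i _ => hw i) (fun i _ => hdesc i)
      have h7 := (mk_eq _ _).1 h6
      have h8 : (n : ↥(D.group F))⁻¹ * (m : ↥(D.group F)) ∈ HG D F :=
        mem_HG_of hR hT h7 ((pair hR hT).N.mul_mem ((pair hR hT).N.inv_mem n.2) m.2)
      exact hm _ h8 (by group)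
    exact dvd_pow_self _ (by omega)

end Main

/-- The torus is generated by the cocharacters. -/
theorem H_le_closure : HG D F ≤ Subgroup.closure (⋃ i, Set.range (hmG hR hT i)) := by
  intro h hh
  have h1 : (h : GL D.Idx F) ∈ D.diagonalSubgroup F := Subgroup.mem_subgroupOf.1 hh
  rw [diagonal_eq hR hT] at h1
  obtain ⟨c, hc, he⟩ := h1
  have h2 : hP hR c ∈ (Subgroup.closure (⋃ i, Set.range (hmG hR hT i))).map (D.group F).subtype := by
    rw [hP]
    apply Subgroup.list_prod_mem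
    intro x hx
    obtain ⟨j, hj, rfl⟩ := List.mem_map.1 hx
    have hj' := List.mem_range.1 hj
    refine ⟨hmG hR hT ⟨j, hj'⟩ (Units.mk0 (c j) (hc j hj')), Subgroup.subset_closure ?_, rfl⟩
    exact Set.mem_iUnion.2 ⟨⟨j, hj'⟩, _, rfl⟩
  obtain ⟨g, hg, hge⟩ := h2
  have : g = h := Subtype.ext (hge.trans he.symm)
  rwa [this] at hg

end Cfsg.Agent.Lib.StChar.Inst2
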