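import Cfsg.Agent.Lib.StChar.Top
import Cfsg.Agent.Lib.StChar.Count

/-!
# Steinberg's count of unipotent elements

A Chevalley group over `F_q` has exactly `q^(2N)` elements of `p`-power order.
-/

set_option autoImplicit false
set_option linter.unusedSectionVars false

namespace Cfsg.Agent.Lib.StChar.Unip

open Cfsg Cfsg.Lie Cfsg.Agent.Lib.ChevBN.Elem Cfsg.Agent.Lib.ChevBN.Entries Cfsg.Agent.Lib.ChevBN.Table
open Cfsg.Agent.Lib.ChevBN.Collect Cfsg.Agent.Lib.ChevBN.Rel Cfsg.Agent.Lib.ChevBN.Torus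
open Cfsg.Agent.Lib.ChevBN.Monomial Cfsg.Agent.Lib.ChevBN.Core Cfsg.Agent.Lib.ChevBN.Pair
open Cfsg.Agent.Lib.ChevBN.Stmts
open Cfsg.Agent.Lib.ChevTri.Level Cfsg.Agent.Lib.ChevTri.Datum
open Cfsg.Agent.Lib.BNPair.Basic Cfsg.Agent.Lib.BNPair.Parabolic
open Cfsg.Agent.Lib.ChevOrder.BNCount Cfsg.Agent.Lib.ChevOrder.Chev
open Cfsg.Agent.Lib.ChevOrder.Cox
open Cfsg.Agent.Lib.StChar.Cox Cfsg.Agent.Lib.StChar.Gate Cfsg.Agent.Lib.StChar.Inner
open Cfsg.Agent.Lib.StChar.Chev Cfsg.Agent.Lib.StChar.Top Cfsg.Agent.Lib.StChar.Count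
open Cfsg.Agent.Lib.ChevBN.Levi

/-- A `p`-element of a subgroup containing a Sylow subgroup of the group is conjugate in the subgroup
to an element of the Sylow subgroup. -/
theorem exists_conj_of_sylow {G : Type*} [Group G] [Finite G] (p : ℕ) [Fact p.Prime] {U Q : Subgroup G}
    (hUQ : U ≤ Q) (hpg : IsPGroup p U) (hnd : ¬ p ∣ U.index) {x : G} (hx : ∃ k, orderOf x = p ^ k)
    (hxQ : x ∈ Q) : ∃ g ∈ Q, g * x * g⁻¹ ∈ U := by
  have hpgV : IsPGroup p (U.subgroupOf Q) :=
    hpg.of_injective (Subgroup.subgroupOfEquivOfLe hUQ).toMonoidHom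
      (Subgroup.subgroupOfEquivOfLe hUQ).injective
  have hndV : ¬ p ∣ (U.subgroupOf Q).index := by
    intro h
    apply hnd
    rw [← Subgroup.relIndex_mul_index hUQ]
    exact Dvd.dvd.mul_right h _
  let S : Sylow p Q := hpgV.toSylow hndV
  let x' : Q := ⟨x, hxQ⟩
  have hx' : IsPGroup p (Subgroup.zpowers x') := by
    obtain ⟨k, hk⟩ := hx
    refine IsPGroup.of_card (n := k) ?_
    rw [Nat.card_zpowers, Subgroup.orderOf_mk, hk]
  obtain ⟨S', hS'⟩ := hx'.exists_le_sylow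
  obtain ⟨g, hg⟩ := MulAction.exists_smul_eq Q S' S
  have hxS' : x' ∈ (S' : Subgroup Q) := hS' (Subgroup.mem_zpowers x')
  have h1 : g * x' * g⁻¹ ∈ (S : Subgroup Q) := by
    rw [← hg, Sylow.coe_subgroup_smul]
    exact ⟨x', hxS', rfl⟩
  refine ⟨g, g.2, ?_⟩
  have h2 : g * x' * g⁻¹ ∈ U.subgroupOf Q := h1
  exact Subgroup.mem_subgroupOf.1 h2

variable {D : ChevalleyDatum} {F : Type*} [Field F] {η : ℕ → ℕ → ℤ}
  (hR : Sys D F η) (hT : Tbl D) (hT2 : Tbl2 D)

include hR hT

theorem B_norm_U {b x : GL D.Idx F} (hb : b ∈ D.borelSubgroup F) (hx : x ∈ D.posUnipotent F) :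
    b * x * b⁻¹ ∈ D.posUnipotent F := by
  obtain ⟨u, hu, h, hh, rfl⟩ := (mem_B_iff hR hT).1 hb
  have e : u * h * x * (u * h)⁻¹ = u * (h * x * h⁻¹) * u⁻¹ := by group
  rw [e]
  exact Subgroup.mul_mem _ (Subgroup.mul_mem _ hu (H_norm_U hR hT hh hx)) (Subgroup.inv_mem _ hu)

include hT2

theorem mem_UH_iff (J : Set ℕ) {x : GL D.Idx F} :
    x ∈ UH D F J ↔ ∃ y ∈ D.unipotentRadical F J, ∃ h ∈ D.diagonalSubgroup F, x = y * h := by
  rw [UH, mem_sup_iff_of_norm]
  intro h hh y hy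
  have h2 := parabolic_le_norm hR hT hT2 J (H_le_parabolic hR hT J hh)
  exact (Subgroup.mem_normalizer_iff.1 h2 y).1 hy

theorem radical_norm (J : Set ℕ) {g y : GL D.Idx F} (hg : g ∈ D.parabolicSubgroup F J)
    (hy : y ∈ D.unipotentRadical F J) : g * y * g⁻¹ ∈ D.unipotentRadical F J :=
  (Subgroup.mem_normalizer_iff.1 (parabolic_le_norm hR hT hT2 J hg) y).1 hy

theorem card_UH (J : Set ℕ) :
    Nat.card (UH D F J) = Nat.card (D.unipotentRadical F J) * Nat.card (D.diagonalSubgroup F) := by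
  rw [← Nat.card_prod]
  symm
  have hle : D.unipotentRadical F J ≤ UH D F J := le_sup_left
  have hle2 : D.diagonalSubgroup F ≤ UH D F J := le_sup_right
  let Φ : D.unipotentRadical F J × D.diagonalSubgroup F → UH D F J := fun p =>
    ⟨(p.1 : GL D.Idx F) * p.2, Subgroup.mul_mem _ (hle p.1.2) (hle2 p.2.2)⟩
  have hΦ : Function.Bijective Φ := by
    constructor
    · rintro ⟨⟨u, hu⟩, ⟨h, hh⟩⟩ ⟨⟨u', hu'⟩, ⟨h', hh'⟩⟩ he
      have h1 : u * h = u' * h' := congrArg Subtype.val he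
      have h2 : u'⁻¹ * u = h' * h⁻¹ := by
        rw [eq_mul_inv_iff_mul_eq, mul_assoc, h1]
        group
      have h3 : u'⁻¹ * u ∈ D.posUnipotent F ⊓ D.diagonalSubgroup F :=
        ⟨radical_le_U hR hT J (Subgroup.mul_mem _ (Subgroup.inv_mem _ hu') hu), by
          rw [h2]
          exact Subgroup.mul_mem _ hh' (Subgroup.inv_mem _ hh)⟩
      rw [U_inf_H hR hT, Subgroup.mem_bot] at h3
      have h4 : u = u' := (inv_mul_eq_one.1 h3).symm
      subst h4
      have h5 : h = h' := mul_left_cancel h1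
      subst h5
      rfl
    · rintro ⟨x, hx⟩
      obtain ⟨y, hy, h, hh, rfl⟩ := (mem_UH_iff hR hT hT2 J).1 hx
      exact ⟨(⟨y, hy⟩, ⟨h, hh⟩), rfl⟩
  exact Nat.card_congr (Equiv.ofBijective Φ hΦ)

omit hT2 in
theorem UH_le_B (_hT2 : Tbl2 D) (J : Set ℕ) : UH D F J ≤ D.borelSubgroup F :=
  sup_le (le_trans (radical_le_U hR hT J) (U_le_B hR hT)) (H_le_B hR hT)

/-- The subgroup `U_J H` of `B`. -/
noncomputable def T' (hR : Sys D F η) (hT : Tbl D) (J : Set ℕ) : Subgroup ↥(pair hR hT).B :=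
  ((UH D F J).subgroupOf (D.group F)).subgroupOf (pair hR hT).B

omit hT2 in
theorem mem_T' (J : Set ℕ) {b : ↥(pair hR hT).B} :
    b ∈ T' hR hT J ↔ ((b : ↥(D.group F)) : GL D.Idx F) ∈ UH D F J := by
  rw [T', Subgroup.mem_subgroupOf, Subgroup.mem_subgroupOf]

set_option synthInstance.maxHeartbeats 400000 in
/-- The number of fixed points of an element of `U` on `B / U_J H`. -/
theorem card_fixedBy (J : Set ℕ) (u : ↥(pair hR hT).B)
    (hu : ((u : ↥(D.group F)) : GL D.Idx F) ∈ D.posUnipotent F) [Decidable (((u : ↥(D.group F)) : GL D.Idx F) ∈ D.unipotentRadical F J)] :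
    Nat.card (MulAction.fixedBy (↥(pair hR hT).B ⧸ T' hR hT J) u) =
      if ((u : ↥(D.group F)) : GL D.Idx F) ∈ D.unipotentRadical F J then (T' hR hT J).index else 0 := by
  have hBP : D.borelSubgroup F ≤ D.parabolicSubgroup F J := by
    rw [parabolic_eq hR hT]
    exact le_sup_left
  split_ifs with hJ
  · have h1 : MulAction.fixedBy (↥(pair hR hT).B ⧸ T' hR hT J) u = Set.univ := by
      ext c
      simp only [MulAction.mem_fixedBy, Set.mem_univ, iff_true]
      obtain ⟨b, rfl⟩ := QuotientGroup.mk_surjective c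
      show (QuotientGroup.mk (u * b) : ↥(pair hR hT).B ⧸ T' hR hT J) = QuotientGroup.mk b
      rw [QuotientGroup.eq, mem_T']
      have hb : ((b : ↥(D.group F)) : GL D.Idx F)⁻¹ ∈ D.parabolicSubgroup F J :=
        Subgroup.inv_mem _ (hBP ((mem_PB hR hT).1 b.2))
      have h2 := radical_norm hR hT hT2 J hb (Subgroup.inv_mem _ hJ)
      have e : (((u * b)⁻¹ * b : ↥(pair hR hT).B) : ↥(D.group F)) =
          (b : ↥(D.group F))⁻¹ * (u : ↥(D.group F))⁻¹ * (b : ↥(D.group F)) := by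
        simp only [Subgroup.coe_mul, Subgroup.coe_inv]
        group
      rw [e]
      have e2 : (((b : ↥(D.group F))⁻¹ * (u : ↥(D.group F))⁻¹ * (b : ↥(D.group F)) : ↥(D.group F)) : GL D.Idx F) =
          ((b : ↥(D.group F)) : GL D.Idx F)⁻¹ * ((u : ↥(D.group F)) : GL D.Idx F)⁻¹ *
            (((b : ↥(D.group F)) : GL D.Idx F)⁻¹)⁻¹ := by
        simp only [Subgroup.coe_mul, Subgroup.coe_inv, inv_inv]
      rw [e2]
      exact Subgroup.mem_sup_left h2
    rw [h1, Nat.card_univ]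
    rfl
  · have h1 : MulAction.fixedBy (↥(pair hR hT).B ⧸ T' hR hT J) u = ∅ := by
      ext c
      simp only [MulAction.mem_fixedBy, Set.mem_empty_iff_false, iff_false]
      intro hc
      obtain ⟨b, rfl⟩ := QuotientGroup.mk_surjective c
      have hc' : (QuotientGroup.mk (u * b) : ↥(pair hR hT).B ⧸ T' hR hT J) = QuotientGroup.mk b := hc
      rw [QuotientGroup.eq, mem_T'] at hc'
      set b₀ : GL D.Idx F := ((b : ↥(D.group F)) : GL D.Idx F) with hb₀
      set u₀ : GL D.Idx F := ((u : ↥(D.group F)) : GL D.Idx F) with hu₀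
      have e : (((((u * b)⁻¹ * b : ↥(pair hR hT).B) : ↥(D.group F))) : GL D.Idx F) = b₀⁻¹ * u₀⁻¹ * b₀ := by
        simp only [Subgroup.coe_mul, Subgroup.coe_inv, hb₀, hu₀]
        group
      rw [e] at hc'
      obtain ⟨y, hy, h, hh, he⟩ := (mem_UH_iff hR hT hT2 J).1 hc'
      have hbB : b₀ ∈ D.borelSubgroup F := (mem_PB hR hT).1 b.2
      have hz : b₀⁻¹ * u₀⁻¹ * b₀ ∈ D.posUnipotent F := by
        have := B_norm_U hR hT (Subgroup.inv_mem _ hbB) (Subgroup.inv_mem _ hu)
        simpa using this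
      have hh1 : h ∈ D.posUnipotent F ⊓ D.diagonalSubgroup F := by
        refine ⟨?_, hh⟩
        have e3 : h = y⁻¹ * (b₀⁻¹ * u₀⁻¹ * b₀) := by
          rw [he]
          group
        rw [e3]
        exact Subgroup.mul_mem _ (Subgroup.inv_mem _ (radical_le_U hR hT J hy)) hz
      rw [U_inf_H hR hT, Subgroup.mem_bot] at hh1
      rw [hh1, mul_one] at he
      apply hJ
      have h3 := radical_norm hR hT hT2 J (hBP hbB) hy
      rw [← he] at h3
      have e4 : b₀ * (b₀⁻¹ * u₀⁻¹ * b₀) * b₀⁻¹ = u₀⁻¹ := by group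
      rw [e4] at h3
      simpa using Subgroup.inv_mem _ h3
    rw [h1]
    simp

/-- `[B : U_J H] |U_J| = |U|`. -/
theorem index_mul_card [Finite F] (J : Set ℕ) :
    (T' hR hT J).index * Nat.card (D.unipotentRadical F J) = Nat.card (D.posUnipotent F) := by
  have h1 := Subgroup.card_mul_index (T' hR hT J)
  have hle : (UH D F J).subgroupOf (D.group F) ≤ (pair hR hT).B := by
    intro x hx
    exact (mem_PB hR hT).2 (UH_le_B hR hT hT2 J (Subgroup.mem_subgroupOf.1 hx))
  have hle2 : UH D F J ≤ D.group F := le_trans (UH_le_B hR hT hT2 J) (borel_le_G hR hT)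
  have h2 : Nat.card (T' hR hT J) = Nat.card (UH D F J) :=
    (Nat.card_congr (α := ↥(((UH D F J).subgroupOf (D.group F)).subgroupOf (pair hR hT).B)) (Subgroup.subgroupOfEquivOfLe hle).toEquiv).trans
      (Nat.card_congr (Subgroup.subgroupOfEquivOfLe hle2).toEquiv)
  rw [h2, card_UH hR hT hT2, card_PB hR hT, card_B hR hT] at h1
  have hpos : 0 < Nat.card (D.diagonalSubgroup F) := Nat.card_pos
  apply Nat.eq_of_mul_eq_mul_right hpos
  rw [← h1]
  ring

omit hR hT hT2 in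
/-- The `p`-elements. -/
def Om (G : Type*) [Group G] (p : ℕ) : Set G := {g | ∃ k, orderOf g = p ^ k}

omit hR hT hT2 in
theorem Om_conj {G : Type*} [Group G] (p : ℕ) (g x : G) (hx : x ∈ Om G p) : g * x * g⁻¹ ∈ Om G p := by
  obtain ⟨k, hk⟩ := hx
  refine ⟨k, ?_⟩
  rw [← hk]
  exact orderOf_injective (MulAut.conj g).toMonoidHom (MulAut.conj g).injective x

set_option synthInstance.maxHeartbeats 400000 in
/-- The value of `St^K` on `U`. -/
theorem stJ_on_U [Finite F] (K : Finset (Fin D.rank)) (u : ↥(D.group F))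
    (hu : (u : GL D.Idx F) ∈ D.posUnipotent F) [Decidable (u ∈ (D.unipotentRadical F (Fin.val '' (K : Set (Fin D.rank)))).subgroupOf (D.group F))] :
    stJ (pair hR hT) (ee hR hT) K u =
      if u ∈ (D.unipotentRadical F (Fin.val '' (K : Set (Fin D.rank)))).subgroupOf (D.group F) then
        (((T' hR hT (Fin.val '' (K : Set (Fin D.rank)))).index : ℕ) : ℤ) else 0 := by
  classical
  obtain ⟨n, hpar, hnP, h1, h2⟩ := exists_top_rep hR hT K
  have hy : u ∈ (pair hR hT).B := (mem_PB hR hT).2 (U_le_B hR hT hu)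
  have hs := setupW hR hT
  have h3 := sum_fixIn_top (e := ee hR hT) (he := ee_mem hR hT) hs K hy (w := QuotientGroup.mk n) hpar h2
  have h4 := card_fix_top hR hT hT2 (K : Set (Fin D.rank)) n hnP h1 ⟨u, hy⟩
  have h5 := card_fixedBy hR hT hT2 (Fin.val '' (K : Set (Fin D.rank))) ⟨u, hy⟩ hu
  have h6 : stJ (pair hR hT) (ee hR hT) K u =
      (Nat.card {C : ↥(D.group F) ⧸ (pair hR hT).B // cellQ (pair hR hT) C = QuotientGroup.mk n ∧
        u • C = C} : ℤ) := h3
  rw [h6]
  have h7 : (Nat.card {C : ↥(D.group F) ⧸ (pair hR hT).B // cellQ (pair hR hT) C = QuotientGroup.mk n ∧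
        u • C = C}) = _ := h4.trans h5
  rw [h7]
  by_cases hJ : (u : GL D.Idx F) ∈ D.unipotentRadical F (Fin.val '' (K : Set (Fin D.rank)))
  · rw [if_pos hJ, if_pos (Subgroup.mem_subgroupOf.2 hJ)]
  · rw [if_neg hJ, if_neg (fun h => hJ (Subgroup.mem_subgroupOf.1 h))]
    rfl

/-- **Steinberg's count of unipotent elements.** -/
theorem card_unipotent [Fintype F] (p : ℕ) [Fact p.Prime] [CharP F p] :
    Nat.card {g : ↥(D.group F) // ∃ k : ℕ, orderOf g = p ^ k} = Fintype.card F ^ (2 * (D.nroots / 2)) := by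
  classical
  have hp : p.Prime := Fact.out
  obtain ⟨S, hS⟩ := Cfsg.Agent.Lib.ChevOrder.SylowU.exists_sylow hR hT p
  have hU' : IsPGroup p ((D.posUnipotent F).subgroupOf (D.group F)) := by
    rw [← hS]
    exact S.isPGroup'
  have hnd : ¬ p ∣ ((D.posUnipotent F).subgroupOf (D.group F)).index := by
    rw [← hS]
    exact S.not_dvd_index
  have hcU : Nat.card ((D.posUnipotent F).subgroupOf (D.group F)) = Nat.card (D.posUnipotent F) :=
    Nat.card_congr (Subgroup.subgroupOfEquivOfLe (U_le_G hR hT)).toEquiv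
  have hc : ∀ K : Finset (Fin D.rank),
      ∑ x ∈ SS (Om ↥(D.group F) p) ((pair hR hT).parabolic (ee hR hT '' (K : Set (Fin D.rank)))),
        stJ (pair hR hT) (ee hR hT) K x = ((Nat.card (D.posUnipotent F) : ℕ) : ℤ) := by
    intro K
    set J : Set ℕ := Fin.val '' (K : Set (Fin D.rank)) with hJ
    have hPK : ∀ g : ↥(D.group F), g ∈ (pair hR hT).parabolic (ee hR hT '' (K : Set (Fin D.rank))) ↔
        (g : GL D.Idx F) ∈ D.parabolicSubgroup F J := by
      intro g
      rw [parabolic_pair hR hT, ChevalleyDatum.parabolicIn, Subgroup.mem_subgroupOf, Finset.coe_map]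
      rfl
    have hUP : (D.posUnipotent F).subgroupOf (D.group F) ≤
        (pair hR hT).parabolic (ee hR hT '' (K : Set (Fin D.rank))) := by
      intro x hx
      rw [hPK]
      exact U_le_parabolic hR hT J (Subgroup.mem_subgroupOf.1 hx)
    have hRU : (D.unipotentRadical F J).subgroupOf (D.group F) ≤ (D.posUnipotent F).subgroupOf (D.group F) := by
      intro x hx
      exact Subgroup.mem_subgroupOf.2 (radical_le_U hR hT J (Subgroup.mem_subgroupOf.1 hx))
    rw [sum_stJ (Om ↥(D.group F) p) K (U := (D.posUnipotent F).subgroupOf (D.group F))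
      (UJ := (D.unipotentRadical F J).subgroupOf (D.group F))
      (A := (T' hR hT J).index) ?_ (le_trans hRU hUP) ?_ ?_ ?_]
    · rw [Nat.card_congr (Subgroup.subgroupOfEquivOfLe
        (le_trans (radical_le_U hR hT J) (U_le_G hR hT))).toEquiv]
      exact_mod_cast index_mul_card hR hT hT2 J
    · intro y hy
      have h1 := (IsPGroup.iff_orderOf.1 hU') ⟨y, hRU hy⟩
      obtain ⟨k, hk⟩ := h1
      exact ⟨k, (Subgroup.orderOf_mk y (hRU hy)).symm.trans hk⟩
    · intro g hg x hx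
      rw [Subgroup.mem_subgroupOf] at hx ⊢
      exact radical_norm hR hT hT2 J ((hPK g).1 hg) hx
    · intro x hxΩ hxP
      exact exists_conj_of_sylow p hUP hU' hnd hxΩ hxP
    · intro u hu
      exact stJ_on_U hR hT hT2 K u (Subgroup.mem_subgroupOf.1 hu)
  have h1 := card_omega (Om ↥(D.group F) p) (setupW hR hT) (Om_conj p) _ hc
  have h2 := steinberg_one hR hT hT2 (F := F)
  rw [steinberg_eq hR hT, stChar] at h2
  have h3 : (∑ J : Finset (Fin D.rank), (-1 : ℚ) ^ J.card *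
      (((pair hR hT).parabolic (ee hR hT '' (J : Set (Fin D.rank)))).index : ℚ)) =
      (Fintype.card F : ℚ) ^ (D.nroots / 2) := by
    have h4 : ((∑ J : Finset (Fin D.rank), (-1 : ℚ) ^ J.card *
        (((pair hR hT).parabolic (ee hR hT '' (J : Set (Fin D.rank)))).index : ℚ) : ℚ) : ℂ) =
        (((Fintype.card F : ℚ) ^ (D.nroots / 2) : ℚ) : ℂ) := by
      push_cast
      rw [← h2]
      refine Finset.sum_congr rfl fun J _ => ?_
      congr 1
      rw [fixedPointCharacter, MulAction.fixedBy_one_eq_univ, Nat.card_univ]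
      rfl
    exact_mod_cast h4
  rw [h3, Cfsg.Agent.Lib.ChevBN.Stmts.card_U hR hT] at h1
  have h5 : Nat.card ↑(Om ↥(D.group F) p) = Fintype.card F ^ (D.nroots / 2) * Fintype.card F ^ (D.nroots / 2) := by
    exact_mod_cast h1
  rw [two_mul, pow_add, ← h5]
  rfl

end Cfsg.Agent.Lib.StChar.Unip
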